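import Cfsg.Agent.Blocks.TwoPrimeOrder.Tools
import Cfsg.Agent.Screen.BrauerP.Degrees

/-!
The principal block of a simple group of order `p * 2 ^ b * (p - e)`: values and degrees.
-/

set_option autoImplicit false
set_option linter.style.haveILetI false
set_option linter.unusedSectionVars false

namespace Cfsg.Agent.Blocks.TwoPrimeOrder

open Cfsg Cfsg.Agent Screen.BrauerP
open scoped ComplexConjugate

universe u

variable {G : Type u} [Group G] [Fintype G]

/-- A nontrivial irreducible character of a perfect group without proper normal subgroups is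
faithful. -/
theorem faithful_of_simple (hsimple : ∀ K : Subgroup G, K.Normal → K = ⊥ ∨ K = ⊤)
    (χ : IrrCharacter G) (hχ : χ ≠ Blocks.oneChar G) {g : G}
    (hg : (χ : G → ℂ) g = (χ : G → ℂ) 1) : g = 1 := by
  have hc := Chars.irr_isCharacter χ
  have hmem : g ∈ Chars.charKer hc := hg
  rcases hsimple _ (Chars.charKer_normal hc) with h | h
  · rwa [h, Subgroup.mem_bot] at hmem
  exfalso
  have hconst : ∀ y : G, (χ : G → ℂ) y = (χ : G → ℂ) 1 := fun y => by
    have : y ∈ Chars.charKer hc := by rw [h]; exact Subgroup.mem_top y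
    exact this
  have h1 := Chars.classInner_irr_of_ne χ.2 (Blocks.oneChar G).2 (fun h => hχ (Subtype.ext h))
  rw [Chars.classInner_def] at h1
  simp only [Blocks.coe_oneChar, map_one, mul_one, hconst, Finset.sum_const, Finset.card_univ,
    nsmul_eq_mul, ← Nat.card_eq_fintype_card] at h1
  rw [← mul_assoc, inv_mul_cancel₀ Chars.card_ne_zero, one_mul, apply_one_eq_deg] at h1
  exact (deg_pos χ).ne' (by exact_mod_cast h1)

/-- A nontrivial character of a perfect group is not linear. -/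
theorem two_le_deg (hperf : commutator G = ⊤) (χ : IrrCharacter G) (hχ : χ ≠ Blocks.oneChar G) :
    2 ≤ charDegree (χ : G → ℂ) := by
  have h := deg_pos χ
  by_contra h2
  exact hχ (eq_one_of_deg_one hperf χ (by omega))

/-- The situation: the exceptional sign is positive. -/
structure Shape (p : ℕ) (x : G) where
  /-- The block. -/
  D : PData p x
  /-- The exponent of two in the order. -/
  b : ℕ
  /-- The exponent of two in the inertial index. -/
  i : ℕ
  hx : orderOf x = p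
  sylow : ∃ P : Sylow p G, (P : Subgroup G) = Subgroup.zpowers x
  hperf : commutator G = ⊤
  hsimple : ∀ K : Subgroup G, K.Normal → K = ⊥ ∨ K = ⊤
  hp5 : 5 ≤ p
  he : D.e = 2 ^ i
  hi : 1 ≤ i
  ht : 2 ≤ D.t
  hW : D.W = 1
  hC : Subgroup.centralizer ({x} : Set G) = Subgroup.zpowers x
  hcard : Nat.card G = p * 2 ^ b * (p - D.e)
  hdY : ∀ θ ∈ D.Y, charDegree (θ : G → ℂ) = p - D.e

namespace Shape

variable {p : ℕ} [hp : Fact p.Prime] {x : G} (S : Shape p x)
include S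

theorem x_ne : x ≠ 1 := fun h => hp.out.ne_one (by rw [← S.hx, h, orderOf_one])

theorem p_odd : Odd p := hp.out.odd_of_ne_two (by have := S.hp5; omega)

theorem pow_ne {j : ℕ} (hj : j ∈ Finset.Ico 1 p) : x ^ j ≠ 1 := by
  obtain ⟨h1, h2⟩ := Finset.mem_Ico.1 hj
  exact pow_ne_one_of_lt_orderOf (by omega) (by rw [S.hx]; exact h2)

theorem e_even : 2 ∣ S.D.e := by
  rw [S.he]; exact dvd_pow_self 2 (by have := S.hi; omega)

theorem two_e_le : 2 * S.D.e ≤ p - 1 := by
  rw [← S.D.mul_et, mul_comm 2]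
  exact Nat.mul_le_mul_left _ S.ht

theorem deg_lt : p - S.D.e < p - 1 ∧ S.D.e < p - S.D.e := by
  have h1 := S.two_e_le
  have h2 := Nat.le_of_dvd S.D.e_pos S.e_even
  have := S.hp5
  omega

theorem g0_odd : Odd (p - S.D.e) := by
  have h1 := S.deg_lt
  obtain ⟨k, hk⟩ := S.e_even
  obtain ⟨l, hl⟩ := S.p_odd
  exact ⟨l - k, by omega⟩

theorem centralizer_pow {y : G} (hy : y ∈ Subgroup.zpowers x) (hy1 : y ≠ 1) :
    Subgroup.centralizer ({y} : Set G) = Subgroup.zpowers x := by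
  have hgen : x ∈ Subgroup.zpowers y := by
    have hle := Subgroup.zpowers_le.2 hy
    have : Subgroup.zpowers y = Subgroup.zpowers x := by
      refine Subgroup.eq_of_le_of_card_ge hle ?_
      have h := Subgroup.orderOf_dvd_natCard _ hy
      rw [Nat.card_zpowers, S.hx] at h
      rw [Nat.card_zpowers, Nat.card_zpowers, S.hx, ((Nat.dvd_prime hp.out).1 h).resolve_left
        fun h1 => hy1 (orderOf_eq_one_iff.1 h1)]
    rw [this]; exact Subgroup.mem_zpowers x
  refine le_antisymm (fun g hg => ?_) (fun g hg => ?_)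
  · rw [← S.hC, Subgroup.mem_centralizer_singleton_iff]
    obtain ⟨k, hk⟩ := hgen
    rw [← hk]
    exact ((show Commute g y from Subgroup.mem_centralizer_singleton_iff.1 hg).zpow_right k).eq
  · rw [Subgroup.mem_centralizer_singleton_iff]
    obtain ⟨i, rfl⟩ := hg
    obtain ⟨j, rfl⟩ := hy
    exact ((Commute.refl x).zpow_zpow i j).eq

theorem exists_conj {g : G} (hg : p ∣ orderOf g) :
    ∃ a : G, a * g * a⁻¹ ∈ Subgroup.zpowers x ∧ a * g * a⁻¹ ≠ 1 := by
  obtain ⟨P, hP⟩ := S.sylow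
  set u := g ^ (orderOf g / p) with hu
  have huo : orderOf u = p := orderOf_pow_orderOf_div (orderOf_pos g).ne' hg
  have hc : Nat.card (Subgroup.zpowers u) = p ^ (Nat.card G).factorization p := by
    rw [Nat.card_zpowers, huo, ← P.card_eq_multiplicity, hP, Nat.card_zpowers, S.hx]
  obtain ⟨a, ha⟩ := MulAction.exists_smul_eq G (Sylow.ofCard _ hc) P
  have hau : a * u * a⁻¹ ∈ Subgroup.zpowers x := by
    rw [← hP, ← ha]
    refine ⟨u, ?_, rfl⟩
    show u ∈ (Sylow.ofCard _ hc : Subgroup G)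
    rw [Sylow.coe_ofCard]
    exact Subgroup.mem_zpowers u
  have hau1 : a * u * a⁻¹ ≠ 1 := fun h => hp.out.ne_one (by
    rw [← huo, conj_eq_one_iff.1 h, orderOf_one])
  refine ⟨a, ?_, fun h => hp.out.not_dvd_one (by
    rw [conj_eq_one_iff.1 h, orderOf_one] at hg; exact hg)⟩
  rw [← S.centralizer_pow hau hau1, Subgroup.mem_centralizer_singleton_iff]
  have h : Commute g u := (Commute.refl g).pow_right _
  exact (h.map (MulAut.conj a).toMonoidHom).eq

theorem card_N :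
    Nat.card (Subgroup.normalizer ((Subgroup.zpowers x : Subgroup G) : Set G)) = p * S.D.e := by
  set N := Subgroup.normalizer ((Subgroup.zpowers x : Subgroup G) : Set G)
  have hle : Subgroup.centralizer ({x} : Set G) ≤ N := by rw [S.hC]; exact Subgroup.le_normalizer
  have h := Subgroup.card_mul_index ((Subgroup.centralizer ({x} : Set G)).subgroupOf N)
  rw [Nat.card_congr (Subgroup.subgroupOfEquivOfLe hle).toEquiv] at h
  change _ * (Subgroup.centralizer ({x} : Set G)).relIndex N = _ at h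
  rw [S.D.relIndex, S.hC, Nat.card_zpowers, S.hx] at h
  exact h.symm

open scoped Classical in
theorem sum_sing (h : G → ℂ) (hconj : ∀ a g : G, h (a * g * a⁻¹) = h g) :
    (p : ℂ) * (S.D.e : ℂ) * ∑ g ∈ Finset.univ.filter (fun g : G => p ∣ orderOf g), h g =
      (Nat.card G : ℂ) * ∑ j ∈ Finset.Ico 1 p, h (x ^ j) := by
  rw [← sum_singular hp.out S.hx (fun g hg => ⟨_, (S.exists_conj hg).choose_spec.1⟩)
    (fun g hg h => hp.out.not_dvd_one (by rw [h, orderOf_one] at hg; exact hg)) h hconj, S.card_N,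
    Nat.cast_mul]

open scoped Classical in
theorem count :
    p * S.D.e * (Finset.univ.filter fun g : G => p ∣ orderOf g).card =
      Nat.card G * (p - 1) := by
  have h := S.sum_sing (fun _ => 1) (fun _ _ => rfl)
  simp only [Finset.sum_const, nsmul_eq_mul, mul_one, Nat.card_Ico] at h
  exact_mod_cast h

/-- A class function vanishing on the regular elements. -/
theorem inner_sing (Q : G → ℂ) (hQ : ∀ a g : G, Q (a * g * a⁻¹) = Q g)
    (hreg : ∀ g : G, ¬ p ∣ orderOf g → Q g = 0) (χ : IrrCharacter G) :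
    (p : ℂ) * (S.D.e : ℂ) * classInner Q (χ : G → ℂ) =
      ∑ j ∈ Finset.Ico 1 p, Q (x ^ j) * conj ((χ : G → ℂ) (x ^ j)) := by
  classical
  have h := S.sum_sing (fun g => Q g * conj ((χ : G → ℂ) g)) (fun a g => by
    simp only [hQ, Chars.isCharacter_conj_apply (Chars.irr_isCharacter χ)])
  rw [Chars.classInner_def, ← Finset.sum_filter_add_sum_filter_not Finset.univ
    (fun g : G => p ∣ orderOf g),
    Finset.sum_eq_zero (s := Finset.univ.filter fun g : G => ¬ p ∣ orderOf g)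
    (f := fun g => Q g * conj ((χ : G → ℂ) g)) (by
      intro g hg
      rw [hreg g (Finset.mem_filter.1 hg).2, zero_mul]), add_zero,
    mul_left_comm, h, inv_mul_cancel_left₀ Chars.card_ne_zero]

theorem X_val {χ : IrrCharacter G} (hχ : χ ∈ S.D.X) {y : G} (hy : y ∈ Subgroup.zpowers x)
    (hy1 : y ≠ 1) : (χ : G → ℂ) y = (S.D.ε χ : ℂ) := by
  have h := S.D.X_value χ hχ y hy hy1 1 (one_mem _) (by rw [orderOf_one]; exact hp.out.not_dvd_one)
  rwa [mul_one] at h

theorem Y_val_sum {y : G} (hy : y ∈ Subgroup.zpowers x) (hy1 : y ≠ 1) :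
    ∑ θ ∈ S.D.Y, (θ : G → ℂ) y = 1 := by
  rw [S.D.Y_sum y hy hy1, S.hW, Int.cast_one]

theorem Y_deg_val {θ : IrrCharacter G} (hθ : θ ∈ S.D.Y) :
    (θ : G → ℂ) 1 = ((p - S.D.e : ℕ) : ℂ) := by
  rw [apply_one_eq_deg, S.hdY θ hθ]

theorem Y_norm_ge {θ : IrrCharacter G} (hθ : θ ∈ S.D.Y) :
    (S.D.e : ℝ) * (p - S.D.e : ℕ) ≤
      ∑ j ∈ Finset.Ico 1 p, Complex.normSq ((θ : G → ℂ) (x ^ j)) := by
  classical
  set W : Subgroup G := Subgroup.zpowers x
  obtain ⟨s, hs, hsd⟩ := le_norm_of_comm (G := W) (fun a b => mul_comm' a b)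
    (Chars.isCharacter_restrict (Chars.irr_isCharacter θ) W)
    (d := p - S.D.e) (by show (θ : G → ℂ) ((1 : W) : G) = _; rw [OneMemClass.coe_one, S.Y_deg_val hθ])
  have hWc : Nat.card W = p := by rw [Nat.card_zpowers, S.hx]
  rw [Chars.classInner_def, hWc] at hs
  have h2 : ∑ w : W, (θ : G → ℂ) w * conj ((θ : G → ℂ) w) = (p : ℂ) * s := by
    rw [← hs, ← mul_assoc, mul_inv_cancel₀ (Nat.cast_ne_zero.2 hp.out.ne_zero), one_mul]
  rw [sum_zpowers (fun g => (θ : G → ℂ) g * conj ((θ : G → ℂ) g)), S.hx, Finset.range_eq_Ico,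
    Finset.sum_eq_sum_Ico_succ_bot hp.out.pos, pow_zero, S.Y_deg_val hθ, zero_add, map_natCast]
    at h2
  simp only [Complex.mul_conj] at h2
  have h3 : ((p - S.D.e : ℕ) : ℝ) * ((p - S.D.e : ℕ) : ℝ) +
      ∑ j ∈ Finset.Ico 1 p, Complex.normSq ((θ : G → ℂ) (x ^ j)) = (p : ℝ) * s := by
    exact_mod_cast h2
  have h4 : ((p - S.D.e : ℕ) : ℝ) ≤ (s : ℝ) := by exact_mod_cast hsd
  have h5 : (S.D.e : ℝ) + ((p - S.D.e : ℕ) : ℝ) = (p : ℝ) := by
    rw [← Nat.cast_add, Nat.add_sub_cancel' (by have := S.two_e_le; omega)]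
  nlinarith [mul_le_mul_of_nonneg_left h4 (Nat.cast_nonneg p : (0 : ℝ) ≤ p)]

/-- Outside the block all characters vanish at the singular elements. -/
theorem vanish {χ : IrrCharacter G} (hX : χ ∉ S.D.X) (hY : χ ∉ S.D.Y) {y : G}
    (hy : y ∈ Subgroup.zpowers x) (hy1 : y ≠ 1) : (χ : G → ℂ) y = 0 := by
  classical
  set F : IrrCharacter G → ℝ := fun ψ =>
    ∑ j ∈ Finset.Ico 1 p, Complex.normSq ((ψ : G → ℂ) (x ^ j)) with hF
  have hFn : ∀ ψ, 0 ≤ F ψ := fun ψ => Finset.sum_nonneg fun j _ => Complex.normSq_nonneg _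
  have htot : ∑ ψ, F ψ = (p : ℝ) * (p - 1 : ℕ) := by
    simp only [hF]
    rw [Finset.sum_comm, Finset.sum_congr rfl (g := fun _ => (p : ℝ)) fun j hj => by
      rw [column_norm, S.centralizer_pow (Subgroup.pow_mem _ (Subgroup.mem_zpowers x) _)
        (S.pow_ne hj), Nat.card_zpowers, S.hx]]
    rw [Finset.sum_const, Nat.card_Ico, nsmul_eq_mul, mul_comm]
  have hFX : ∀ ψ ∈ S.D.X, F ψ = ((p - 1 : ℕ) : ℝ) := fun ψ hψ => by
    simp only [hF]
    rw [Finset.sum_congr rfl (g := fun _ => (1 : ℝ)) fun j hj => by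
      rw [S.X_val hψ (Subgroup.pow_mem _ (Subgroup.mem_zpowers x) _) (S.pow_ne hj)]
      rcases S.D.sign ψ hψ with h | h <;> simp [h]]
    simp
  have hlow : ((p - 1 : ℕ) : ℝ) * (p : ℝ) ≤ ∑ ψ ∈ S.D.X, F ψ + ∑ ψ ∈ S.D.Y, F ψ := by
    have h1 := Finset.card_nsmul_le_sum S.D.Y F _ fun ψ hψ => S.Y_norm_ge hψ
    rw [S.D.card_Y, nsmul_eq_mul] at h1
    rw [Finset.sum_congr rfl hFX, Finset.sum_const, S.D.card_X, nsmul_eq_mul]
    have het : (S.D.e : ℝ) * (S.D.t : ℝ) = ((p - 1 : ℕ) : ℝ) := by exact_mod_cast S.D.mul_et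
    have h5 : (S.D.e : ℝ) + ((p - S.D.e : ℕ) : ℝ) = (p : ℝ) := by
      rw [← Nat.cast_add, Nat.add_sub_cancel' (by have := S.two_e_le; omega)]
    rw [← mul_assoc, mul_comm (S.D.t : ℝ), het] at h1
    rw [← h5]
    linarith
  rw [← Finset.sum_add_sum_compl (S.D.X ∪ S.D.Y) F, Finset.sum_union S.D.disj] at htot
  have h0 : ∑ ψ ∈ (S.D.X ∪ S.D.Y)ᶜ, F ψ = 0 :=
    le_antisymm (by rw [mul_comm] at hlow; linarith) (Finset.sum_nonneg fun ψ _ => hFn ψ)
  have hχ0 : F χ = 0 := (Finset.sum_eq_zero_iff_of_nonneg fun ψ _ => hFn ψ).1 h0 χ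
    (by simp [hX, hY])
  rw [mem_zpowers_iff_mem_range_orderOf, S.hx] at hy
  obtain ⟨j, hj, rfl⟩ := Finset.mem_image.1 hy
  have hj' : j ∈ Finset.Ico 1 p := Finset.mem_Ico.2 ⟨Nat.one_le_iff_ne_zero.2 fun h =>
    hy1 (by rw [h, pow_zero]), Finset.mem_range.1 hj⟩
  exact Complex.normSq_eq_zero.1
    ((Finset.sum_eq_zero_iff_of_nonneg fun j _ => Complex.normSq_nonneg _).1 hχ0 j hj')

theorem dvd_deg_of_not_mem {χ : IrrCharacter G} (hX : χ ∉ S.D.X) (hY : χ ∉ S.D.Y) :
    p ∣ charDegree (χ : G → ℂ) := by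
  have h := dvd_of_vanish (Chars.irr_isCharacter χ) (apply_one_eq_deg χ) (Subgroup.zpowers x)
    fun g hg hg1 => S.vanish hX hY hg hg1
  rwa [Nat.card_zpowers, S.hx] at h

theorem mem_of_ne_zero {χ : IrrCharacter G} (h : (χ : G → ℂ) x ≠ 0) :
    χ ∈ S.D.X ∨ χ ∈ S.D.Y := by
  by_contra hc
  push Not at hc
  exact h (S.vanish hc.1 hc.2 (Subgroup.mem_zpowers x) S.x_ne)

/-- The relation with the principal character taken out. -/
theorem rel [DecidableEq (IrrCharacter G)] {θ : IrrCharacter G} (hθ : θ ∈ S.D.Y) {g : G}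
    (hg : ¬ p ∣ orderOf g) :
    1 + (∑ χ ∈ S.D.X.erase (Blocks.oneChar G), (S.D.ε χ : ℂ) * (χ : G → ℂ) g) +
      (θ : G → ℂ) g = 0 := by
  have h := S.D.relation g hg θ hθ
  rw [← Finset.add_sum_erase _ _ S.D.one_mem, S.D.one_sign, S.hW, Blocks.coe_oneChar] at h
  simpa using h

theorem dvd_card {χ : IrrCharacter G} : charDegree (χ : G → ℂ) ∣ p * 2 ^ S.b * (p - S.D.e) := by
  rw [← S.hcard]
  obtain ⟨d, -, hd, hdvd⟩ := Chars.irr_degree_dvd_card χ.2
  rw [apply_one_eq_deg] at hd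
  rwa [show charDegree (χ : G → ℂ) = d by exact_mod_cast hd]

/-- The degrees of the other block characters. -/
theorem X_deg_facts {χ : IrrCharacter G} (hχ : χ ∈ S.D.X) (hne : χ ≠ Blocks.oneChar G) :
    p - S.D.e < charDegree (χ : G → ℂ) ∧ 2 ∣ charDegree (χ : G → ℂ) ∧
      charDegree (χ : G → ℂ) ∣ 2 ^ S.b * (p - S.D.e) ∧
      ∃ k : ℕ, 1 ≤ k ∧ (charDegree (χ : G → ℂ) : ℤ) = k * p + S.D.ε χ := by
  set d := charDegree (χ : G → ℂ) with hd
  have h2 := two_le_deg S.hperf χ hne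
  have hlt := S.deg_lt
  obtain ⟨k, hk⟩ := Int.modEq_iff_dvd.1 (S.D.X_deg χ hχ).symm
  have hp0 : (0 : ℤ) ≤ p := Int.natCast_nonneg p
  have hk1 : 1 ≤ k := by
    by_contra h
    have h' : (p : ℤ) * k ≤ 0 := mul_nonpos_of_nonneg_of_nonpos hp0 (by omega)
    rcases S.D.sign χ hχ with hε | hε <;> omega
  have hkp : (p : ℤ) ≤ (p : ℤ) * k := le_mul_of_one_le_right hp0 hk1
  have hgt : p - S.D.e < d := by rcases S.D.sign χ hχ with hε | hε <;> omega
  have hpd : ¬ p ∣ d := by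
    intro h
    have h' : (p : ℤ) ∣ S.D.ε χ := by
      have h3 : (p : ℤ) ∣ (d : ℤ) := Int.natCast_dvd_natCast.2 h
      rw [show S.D.ε χ = (d : ℤ) - p * k by linarith]
      exact dvd_sub h3 (dvd_mul_right _ _)
    have hp2 := hp.out.two_le
    rcases S.D.sign χ hχ with hε | hε <;> rw [hε] at h'
    · have := Int.le_of_dvd one_pos h'; omega
    · rw [dvd_neg] at h'; have := Int.le_of_dvd one_pos h'; omega
  have hdvd : d ∣ 2 ^ S.b * (p - S.D.e) := by
    refine ((hp.out.coprime_iff_not_dvd.2 hpd).symm).dvd_of_dvd_mul_left ?_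
    rw [← mul_assoc]
    exact S.dvd_card
  refine ⟨hgt, ?_, hdvd, k.toNat, by omega, ?_⟩
  · by_contra hodd
    have h3 := ((Nat.prime_two.coprime_iff_not_dvd.2 hodd).symm.pow_right S.b).dvd_of_dvd_mul_left hdvd
    have := Nat.le_of_dvd (by omega) h3
    omega
  · rw [Int.toNat_of_nonneg (by omega)]
    linarith

end Shape

end Cfsg.Agent.Blocks.TwoPrimeOrder
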