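import Cfsg.Agent.Chars.Eigen
import Cfsg.Agent.Chars2.ClassSum
import Cfsg.Agent.Chars2.Linear
import Cfsg.Agent.Blocks.Lattice
import Cfsg.Agent.Blocks.Orth
import Mathlib.LinearAlgebra.Matrix.Kronecker
import Mathlib.LinearAlgebra.Trace

/-!
Traces of commuting idempotents and involutions, and a count of the elements of a class carried
into another by a translation.
-/

set_option autoImplicit false
set_option linter.style.haveILetI false
set_option linter.unusedSectionVars false

namespace Cfsg.Agent.Blocks.TwoPrimeOrder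

open Cfsg Cfsg.Agent Matrix
open scoped ComplexConjugate Kronecker

universe u

section matrices

variable {ι : Type*} [Fintype ι] [DecidableEq ι]

theorem exists_nat_trace (Q : Matrix ι ι ℂ) (hQ : Q * Q = Q) : ∃ n : ℕ, Q.trace = (n : ℂ) := by
  set f := Matrix.toLin' Q with hf
  have hff : IsIdempotentElem f := by
    rw [IsIdempotentElem, hf, Module.End.mul_eq_comp, ← Matrix.toLin'_mul, hQ]
  have h := (LinearMap.isProj_range_iff_isIdempotentElem f |>.2 hff).trace
  rw [hf, Matrix.trace_toLin'_eq] at h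
  exact ⟨_, h⟩

/-- An idempotent split by a commuting involution. -/
theorem trace_split (Q T : Matrix ι ι ℂ) (hQ : Q * Q = Q) (hT : T * T = 1) (hc : T * Q = Q * T) :
    ∃ a b : ℕ, Q.trace = (a : ℂ) + b ∧ (T * Q).trace = (a : ℂ) - b := by
  have hTQ : (T * Q) * (T * Q) = Q := by
    rw [mul_assoc, ← mul_assoc Q, ← hc, mul_assoc T, hQ, ← mul_assoc, hT, one_mul]
  have h1 : Q * (T * Q) = T * Q := by rw [← mul_assoc, ← hc, mul_assoc, hQ]
  have h2 : (T * Q) * Q = T * Q := by rw [mul_assoc, hQ]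
  obtain ⟨a, ha⟩ := exists_nat_trace ((2 : ℂ)⁻¹ • (Q + T * Q)) (by
    rw [Matrix.smul_mul, Matrix.mul_smul, smul_smul, mul_add, add_mul, add_mul, hTQ, h1, h2, hQ]
    module)
  obtain ⟨b, hb⟩ := exists_nat_trace ((2 : ℂ)⁻¹ • (Q - T * Q)) (by
    rw [Matrix.smul_mul, Matrix.mul_smul, smul_smul, mul_sub, sub_mul, sub_mul, hTQ, h1, h2, hQ]
    module)
  rw [Matrix.trace_smul, Matrix.trace_add, smul_eq_mul] at ha
  rw [Matrix.trace_smul, Matrix.trace_sub, smul_eq_mul] at hb
  exact ⟨a, b, by linear_combination ha + hb, by linear_combination ha - hb⟩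

end matrices

variable {G : Type u} [Group G] [Fintype G]

theorem sum_zpowers {x : G} (f : G → ℂ) :
    ∑ w : Subgroup.zpowers x, f w = ∑ j ∈ Finset.range (orderOf x), f (x ^ j) := by
  rw [← Fin.sum_univ_eq_sum_range (fun j => f (x ^ j))]
  refine (Fintype.sum_equiv (finEquivZPowers (isOfFinOrder_of_finite x)) _ _ fun n => ?_).symm
  rw [finEquivZPowers_apply]

/-- The value at an element inverting `x` is bounded by the fixed space of `x`. -/
theorem inverting_split (χ : IrrCharacter G) {x u : G} {p : ℕ} (hx : orderOf x = p) (hp : Odd p)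
    (hu : u * u = 1) (hux : u * x * u = x⁻¹) :
    ∃ a b : ℕ, ∑ j ∈ Finset.range p, (χ : G → ℂ) (x ^ j) = (p : ℂ) * ((a : ℂ) + b) ∧
      (χ : G → ℂ) u = (a : ℂ) - b := by
  classical
  obtain ⟨n, ρ, htr⟩ := Blocks.exists_matrixRep χ.2
  have hp0 : (p : ℂ) ≠ 0 := Nat.cast_ne_zero.2 fun h => by simp [h] at hp
  set W : Subgroup G := Subgroup.zpowers x
  set Q : Matrix (Fin n) (Fin n) ℂ := (p : ℂ)⁻¹ • ∑ w : W, ρ (w : G) with hQ
  have hinv : ∀ v : W, u * (v : G) * u = (v : G)⁻¹ := by
    rintro ⟨v, i, rfl⟩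
    have h := conj_zpow (i := i) (a := u) (b := x)
    rw [inv_eq_of_mul_eq_one_right hu, hux] at h
    rw [← h, _root_.inv_zpow]
  have hQQ : Q * Q = Q := by
    have h1 : (∑ w : W, ρ (w : G)) * (∑ w : W, ρ (w : G)) =
        (p : ℂ) • ∑ w : W, ρ (w : G) := by
      conv_lhs => rw [Finset.sum_mul]
      simp only [Finset.mul_sum, ← map_mul]
      have : ∀ v : W, ∑ w : W, ρ ((v : G) * w) = ∑ w : W, ρ (w : G) := fun v =>
        Fintype.sum_equiv (Equiv.mulLeft v) _ _ fun w => rfl
      simp only [this, Finset.sum_const, Finset.card_univ, ← Nat.card_eq_fintype_card,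
        Nat.card_zpowers, hx, W, ← Nat.cast_smul_eq_nsmul ℂ]
    rw [hQ, Matrix.smul_mul, Matrix.mul_smul, h1, smul_smul, smul_smul, mul_assoc,
      inv_mul_cancel₀ hp0, mul_one]
  have hTT : ρ u * ρ u = 1 := by rw [← map_mul, hu, map_one]
  have hcomm : ρ u * Q = Q * ρ u := by
    rw [hQ, Matrix.mul_smul, Matrix.smul_mul, Finset.mul_sum, Finset.sum_mul]
    congr 1
    refine Fintype.sum_equiv (Equiv.inv W) _ _ fun v => ?_
    rw [← map_mul, ← map_mul, Equiv.inv_apply, Subgroup.coe_inv, ← hinv v]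
    congr 1
    rw [mul_assoc _ u u, hu, mul_one]
  obtain ⟨a, b, h1, h2⟩ := trace_split Q (ρ u) hQQ hTT hcomm
  have hsum : Q.trace = (p : ℂ)⁻¹ * ∑ j ∈ Finset.range p, (χ : G → ℂ) (x ^ j) := by
    rw [hQ, Matrix.trace_smul, Matrix.trace_sum, smul_eq_mul, ← hx, ← sum_zpowers]
    simp only [htr]
    rfl
  have hconst : ∀ j : ℕ, (χ : G → ℂ) (u * x ^ j) = (χ : G → ℂ) u := by
    intro j
    obtain ⟨k, hk⟩ := hp
    have hi := hinv ⟨x ^ (j * (k + 1)), Subgroup.pow_mem _ (Subgroup.mem_zpowers x) _⟩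
    have h := Chars.isCharacter_conj_apply (Chars.irr_isCharacter χ) u ((x ^ (j * (k + 1)))⁻¹)
    rw [inv_inv] at h
    rw [← h]
    congr 1
    have e : x ^ (j * (k + 1)) * x ^ (j * (k + 1)) = x ^ j := by
      rw [← pow_add, ← pow_mod_orderOf, hx, show j * (k + 1) + j * (k + 1) = j + p * j by
        rw [hk]; ring, Nat.add_mul_mod_self_left, ← hx, pow_mod_orderOf]
    dsimp only at hi
    rw [← e, ← hi]
    simp only [mul_assoc]
    rw [← mul_assoc u u, hu, one_mul]
  have htQ : (ρ u * Q).trace = (χ : G → ℂ) u := by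
    rw [hQ, Matrix.mul_smul, Finset.mul_sum, Matrix.trace_smul, Matrix.trace_sum, smul_eq_mul]
    simp only [← map_mul, htr]
    rw [sum_zpowers (fun g => (χ : G → ℂ) (u * g)), hx]
    simp only [hconst, Finset.sum_const, Finset.card_range, nsmul_eq_mul]
    rw [← mul_assoc, inv_mul_cancel₀ hp0, one_mul]
  refine ⟨a, b, ?_, htQ ▸ h2⟩
  rw [← h1, hsum, ← mul_assoc, mul_inv_cancel₀ hp0, one_mul]

/-- The multiplicities in the square and in the squared argument of an irreducible character. -/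
theorem square_split (θ χ : IrrCharacter G) :
    ∃ a b : ℕ,
      classInner (fun g => (θ : G → ℂ) g * (θ : G → ℂ) g) (χ : G → ℂ) = (a : ℂ) + b ∧
      classInner (fun g => (θ : G → ℂ) (g * g)) (χ : G → ℂ) = (a : ℂ) - b := by
  classical
  obtain ⟨n, ρ, hρ⟩ := Blocks.exists_matrixRep θ.2
  obtain ⟨m, σ, hσ⟩ := Blocks.exists_matrixRep χ.2
  let cσ : G →* Matrix (Fin m) (Fin m) ℂ :=
    ((starRingEnd ℂ).mapMatrix : Matrix (Fin m) (Fin m) ℂ →+* _).toMonoidHom.comp σ
  have hcσ : ∀ g, (cσ g).trace = conj ((χ : G → ℂ) g) := fun g => by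
    rw [← hσ g, AddMonoidHom.map_trace (starRingEnd ℂ)]
    rfl
  let A : G → Matrix ((Fin n × Fin n) × Fin m) ((Fin n × Fin n) × Fin m) ℂ :=
    fun g => (ρ g ⊗ₖ ρ g) ⊗ₖ cσ g
  have hA : ∀ g h, A g * A h = A (g * h) := fun g h => by
    simp only [A, ← mul_kronecker_mul, map_mul]
  set Q := (Nat.card G : ℂ)⁻¹ • ∑ g : G, A g with hQ
  have hQQ : Q * Q = Q := by
    have h1 : (∑ g : G, A g) * (∑ g : G, A g) = (Nat.card G : ℂ) • ∑ g : G, A g := by
      conv_lhs => rw [Finset.sum_mul]
      simp only [Finset.mul_sum, hA]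
      have : ∀ v : G, ∑ w : G, A (v * w) = ∑ w : G, A w := fun v =>
        Fintype.sum_equiv (Equiv.mulLeft v) _ _ fun w => rfl
      simp only [this, Finset.sum_const, Finset.card_univ, ← Nat.card_eq_fintype_card,
        ← Nat.cast_smul_eq_nsmul ℂ]
    rw [hQ, Matrix.smul_mul, Matrix.mul_smul, h1, smul_smul, smul_smul, mul_assoc,
      inv_mul_cancel₀ Chars.card_ne_zero, mul_one]
  let S : Matrix (Fin n × Fin n) (Fin n × Fin n) ℂ :=
    Matrix.of fun a b => if (a.2, a.1) = b then 1 else 0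
  have hSmul : ∀ (B : Matrix (Fin n × Fin n) (Fin n × Fin n) ℂ) (a b : Fin n × Fin n),
      (S * B) a b = B (a.2, a.1) b := fun B a b => by
    simp only [Matrix.mul_apply, S, Matrix.of_apply, ite_mul, one_mul, zero_mul,
      Finset.sum_ite_eq, Finset.mem_univ, if_true]
  have hSS : S * S = 1 := by
    ext a b
    rw [hSmul]
    simp [S, Matrix.of_apply, Matrix.one_apply]
  have hSA : ∀ g, S * (ρ g ⊗ₖ ρ g) = (ρ g ⊗ₖ ρ g) * S := fun g => by
    ext a b
    rw [hSmul, Matrix.mul_apply, Finset.sum_eq_single (b.2, b.1)]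
    · simp [S, kroneckerMap_apply, mul_comm]
    · intro c _ hcb
      rw [show S c b = 0 from if_neg (by rintro rfl; exact hcb rfl), mul_zero]
    · simp
  set T : Matrix ((Fin n × Fin n) × Fin m) ((Fin n × Fin n) × Fin m) ℂ := S ⊗ₖ 1 with hT
  have hTA : ∀ g, T * A g = A g * T := fun g => by
    simp only [hT, A, ← mul_kronecker_mul, one_mul, mul_one, hSA]
  have hTT : T * T = 1 := by rw [hT, ← mul_kronecker_mul, hSS, one_mul, one_kronecker_one]
  have hTQ : T * Q = Q * T := by
    rw [hQ, Matrix.mul_smul, Matrix.smul_mul, Finset.mul_sum, Finset.sum_mul]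
    exact congrArg _ (Finset.sum_congr rfl fun g _ => hTA g)
  obtain ⟨a, b, h1, h2⟩ := trace_split Q T hQQ hTT hTQ
  refine ⟨a, b, ?_, ?_⟩
  · rw [← h1, hQ, Matrix.trace_smul, Matrix.trace_sum, smul_eq_mul, Chars.classInner_def]
    simp only [A, trace_kronecker, hρ, hcσ]
  · have hST : ∀ g, (S * (ρ g ⊗ₖ ρ g)).trace = (θ : G → ℂ) (g * g) := fun g => by
      rw [← hρ, map_mul]
      simp only [Matrix.trace, Matrix.diag_apply, hSmul, kroneckerMap_apply, Matrix.mul_apply,
        Fintype.sum_prod_type]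
      exact Finset.sum_comm
    rw [← h2, hQ, Matrix.mul_smul, Finset.mul_sum, Matrix.trace_smul, Matrix.trace_sum,
      smul_eq_mul, Chars.classInner_def]
    simp only [hT, A, ← mul_kronecker_mul, one_mul, trace_kronecker, hST, hcσ]

/-- In a perfect group the value at an involution is congruent to the degree modulo four. -/
theorem involution_mod_four (hperf : commutator G = ⊤) (χ : IrrCharacter G) {z : G}
    (hz : z * z = 1) {d : ℕ} (hd : (χ : G → ℂ) 1 = d) :
    ∃ β : ℕ, (χ : G → ℂ) z = (d : ℂ) - 4 * β := by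
  classical
  obtain ⟨n, ρ, -, hρ⟩ := χ.2
  obtain ⟨v, w, hv, hw⟩ := Chars.exists_eigenbasis ρ z
  have hpm : ∀ i, w i = 1 ∨ w i = -1 := fun i => by
    obtain ⟨j, hj⟩ := orderOf_dvd_of_pow_eq_one (show z ^ 2 = 1 by rw [sq, hz])
    have h1 : w i * w i = 1 := by rw [← sq, hj, pow_mul, hw i, one_pow]
    exact mul_self_eq_one_iff.1 h1
  set N := (Finset.univ.filter fun i => w i = -1).card with hN
  have hdet : LinearMap.det (ρ z) = ∏ i, w i := by
    rw [← LinearMap.det_toMatrix v,
      show LinearMap.toMatrix v v (ρ z) = Matrix.diagonal w from by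
        ext i j
        simp [LinearMap.toMatrix_apply, hv, Matrix.diagonal, Finsupp.single_apply, eq_comm]
        split <;> simp_all,
      Matrix.det_diagonal]
  have hone : LinearMap.det (ρ z) = 1 := by
    have hker : z ∈ (Chars2.detHom ρ).ker :=
      Abelianization.commutator_subset_ker _ (hperf ▸ Subgroup.mem_top z)
    rw [MonoidHom.mem_ker] at hker
    rw [← Chars2.detHom_apply, hker, Units.val_one]
  have hNe : Even N := by
    have h : (-1 : ℂ) ^ N = 1 := by
      have h' := hdet.symm.trans hone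
      rw [← Finset.prod_filter_mul_prod_filter_not Finset.univ (fun i => w i = -1),
        Finset.prod_congr rfl fun i hi => (Finset.mem_filter.1 hi).2, Finset.prod_const,
        Finset.prod_eq_one fun i hi => (hpm i).resolve_right (Finset.mem_filter.1 hi).2, mul_one,
        ← hN] at h'
      exact h'
    exact (neg_one_pow_eq_one_iff_even (by norm_num)).1 h
  obtain ⟨β, hβ⟩ := hNe
  refine ⟨β, ?_⟩
  have htr : (χ : G → ℂ) z = ∑ i, w i := by
    rw [← hρ, Representation.character, LinearMap.trace_eq_matrix_trace ℂ v]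
    simp [Matrix.trace, Matrix.diag, LinearMap.toMatrix_apply, hv]
  have hdim : (d : ℂ) = Fintype.card (Fin (Module.finrank ℂ (Fin n → ℂ))) := by
    rw [← hd, ← hρ, Representation.char_one, Fintype.card_fin]
  rw [htr, hdim]
  have e : ∀ i, w i = 1 - 2 * (if w i = -1 then (1 : ℂ) else 0) := fun i => by
    rcases hpm i with h | h
    · rw [h, if_neg (by norm_num)]; ring
    · rw [h, if_pos rfl]; ring
  rw [Finset.sum_congr rfl fun i _ => e i, Finset.sum_sub_distrib, ← Finset.mul_sum,
    Finset.sum_boole, ← hN, hβ, Finset.sum_const, Finset.card_univ, nsmul_one]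
  push_cast
  ring

/-- An integer value of a central character. -/
theorem dvd_index_mul (χ : IrrCharacter G) {z : G} {d : ℕ} (hd : (χ : G → ℂ) 1 = d) (hd0 : 0 < d)
    {s : ℤ} (hs : (χ : G → ℂ) z = (s : ℂ)) :
    (d : ℤ) ∣ ((Subgroup.centralizer ({z} : Set G)).index : ℤ) * s := by
  have h := Chars.centralChar_isIntegral_irr χ.2 z
  rw [hd, hs] at h
  set I := (Subgroup.centralizer ({z} : Set G)).index
  have h' : IsIntegral ℤ (((I * s.natAbs : ℕ) : ℂ) / d) := by
    rcases Int.natAbs_eq s with hh | hh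
    · rw [hh] at h; simpa using h
    · rw [hh] at h; simpa [neg_div] using h.neg
  have h2 := Int.natCast_dvd_natCast.2 (Chars.dvd_of_isIntegral_div hd0 h')
  rw [Nat.cast_mul] at h2
  rcases Int.natAbs_eq s with hh | hh
  · rw [hh]; exact h2
  · rw [hh, mul_neg, dvd_neg]; exact h2

open scoped Classical in
/-- The number of class members translated by `x` into the class of `z`. -/
theorem translate_count (u z x : G) :
    (Nat.card (Subgroup.centralizer ({z} : Set G)) : ℂ) *
        ((Finset.univ.filter fun a => IsConj u a ∧ IsConj z (a * x)).card : ℂ) =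
      ((Subgroup.centralizer ({u} : Set G)).index : ℂ) *
        ∑ χ : IrrCharacter G,
          (χ : G → ℂ) u * (χ : G → ℂ) x * conj ((χ : G → ℂ) z) / (χ : G → ℂ) 1 := by
  set A := Finset.univ.filter (IsConj u) with hA
  have hAc : A.card = (Subgroup.centralizer ({u} : Set G)).index := by
    rw [← Chars.card_filter_isConj u, hA]
  have h1 : (Nat.card (Subgroup.centralizer ({z} : Set G)) : ℂ) *
      ((Finset.univ.filter fun a => IsConj u a ∧ IsConj z (a * x)).card : ℂ) =
      conj (∑ a ∈ A, ∑ χ : IrrCharacter G, (χ : G → ℂ) z * conj ((χ : G → ℂ) (a * x))) := by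
    simp only [Chars.column_orth, map_sum, apply_ite conj, map_natCast, map_zero]
    rw [← Finset.sum_filter, Finset.sum_const, nsmul_eq_mul, mul_comm, hA, Finset.filter_filter]
  rw [h1, Finset.sum_comm, map_sum, Finset.mul_sum]
  refine Finset.sum_congr rfl fun χ _ => ?_
  have hne : (χ : G → ℂ) 1 ≠ 0 := by
    rw [(Blocks.charDegree_eq χ.2).1]
    exact Nat.cast_ne_zero.2 (Blocks.charDegree_eq χ.2).2.ne'
  have h2 := Chars2.sum_class_pairs χ.2 u x
  simp only [← hA] at h2
  rw [← Finset.mul_sum, map_mul, map_sum]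
  simp only [Complex.conj_conj]
  rw [eq_div_iff hne |>.2 h2, hAc]
  ring

/-- The norm of a column. -/
theorem column_norm (g : G) :
    ∑ χ : IrrCharacter G, Complex.normSq ((χ : G → ℂ) g) =
      (Nat.card (Subgroup.centralizer ({g} : Set G)) : ℝ) := by
  classical
  have h := Chars.column_orth (G := G) g g
  rw [if_pos (IsConj.refl g)] at h
  simp only [Complex.mul_conj] at h
  exact_mod_cast h

open scoped Classical in
/-- A sum of a class function over the singular elements. -/
theorem sum_singular {p : ℕ} (hp : p.Prime) {x : G} (hx : orderOf x = p)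
    (hform : ∀ g : G, p ∣ orderOf g → ∃ a : G, a * g * a⁻¹ ∈ Subgroup.zpowers x)
    (hsing : ∀ g : G, p ∣ orderOf g → g ≠ 1) (h : G → ℂ)
    (hconj : ∀ a g : G, h (a * g * a⁻¹) = h g) :
    (Nat.card (Subgroup.normalizer ((Subgroup.zpowers x : Subgroup G) : Set G)) : ℂ) *
        ∑ g ∈ Finset.univ.filter (fun g : G => p ∣ orderOf g), h g =
      (Nat.card G : ℂ) * ∑ i ∈ Finset.Ico 1 p, h (x ^ i) := by
  haveI := Fact.mk hp
  set NP := Subgroup.normalizer ((Subgroup.zpowers x : Subgroup G) : Set G) with hNP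
  set T := (Finset.univ : Finset G) ×ˢ (Finset.Ico 1 p) with hT
  set F : G × ℕ → G := fun t => t.1 * x ^ t.2 * t.1⁻¹ with hF
  have hnd : ∀ {i : ℕ}, i ∈ Finset.Ico 1 p → ¬ p ∣ i := fun {i} hi h => by
    have := Nat.le_of_dvd (Finset.mem_Ico.1 hi).1 h
    have := (Finset.mem_Ico.1 hi).2
    omega
  have hordi : ∀ {i : ℕ}, ¬ p ∣ i → orderOf (x ^ i) = p := fun {i} hi => by
    rw [orderOf_pow, hx, (hp.coprime_iff_not_dvd.2 hi).gcd_eq_one, Nat.div_one]
  have hzp : ∀ {i : ℕ}, ¬ p ∣ i → Subgroup.zpowers (x ^ i) = Subgroup.zpowers x := fun {i} hi => by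
    refine Subgroup.eq_of_le_of_card_ge
      (Subgroup.zpowers_le.2 (Subgroup.pow_mem _ (Subgroup.mem_zpowers x) _)) ?_
    rw [Nat.card_zpowers, Nat.card_zpowers, hordi hi, hx]
  have hmaps : ∀ t ∈ T, F t ∈ Finset.univ.filter (fun g : G => p ∣ orderOf g) := by
    intro t ht
    rw [hT, Finset.mem_product] at ht
    refine Finset.mem_filter.2 ⟨Finset.mem_univ _, ?_⟩
    show p ∣ orderOf ((MulAut.conj t.1) (x ^ t.2))
    rw [MulEquiv.orderOf_eq, hordi (hnd ht.2)]
  have hfib : ∀ g ∈ Finset.univ.filter (fun g : G => p ∣ orderOf g),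
      (T.filter fun t => F t = g).card = Nat.card NP := by
    intro g hg
    have hg' := (Finset.mem_filter.1 hg).2
    obtain ⟨b, hb⟩ := hform g hg'
    rw [mem_zpowers_iff_mem_range_orderOf, hx] at hb
    obtain ⟨r, hr, hbr⟩ := Finset.mem_image.1 hb
    have hr' : ¬ p ∣ r := fun hd => by
      have h0 := Nat.eq_zero_of_dvd_of_lt hd (Finset.mem_range.1 hr)
      simp only [h0, pow_zero] at hbr
      exact hsing g hg' (conj_eq_one_iff.1 hbr.symm)
    rw [Nat.card_eq_fintype_card, Fintype.card_subtype]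
    refine Finset.card_bij (fun t _ => b * t.1) (fun t ht => ?_) (fun t ht t' ht' h => ?_)
      (fun c hc => ?_)
    · obtain ⟨htT, hte⟩ := Finset.mem_filter.1 ht
      rw [hT, Finset.mem_product] at htT
      refine Finset.mem_filter.2 ⟨Finset.mem_univ _, ?_⟩
      have h1 : (b * t.1) * x ^ t.2 * (b * t.1)⁻¹ = x ^ r := by
        rw [hbr, ← hte]; simp only [hF]; group
      rw [hNP, Subgroup.mem_normalizer_iff]
      have hmap : (Subgroup.zpowers x).map (MulAut.conj (b * t.1)).toMonoidHom =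
          Subgroup.zpowers x := by
        conv_lhs => rw [← hzp (hnd htT.2), MonoidHom.map_zpowers]
        show Subgroup.zpowers ((b * t.1) * x ^ t.2 * (b * t.1)⁻¹) = _
        rw [h1, hzp hr']
      intro y
      refine ⟨fun hy => hmap ▸ ⟨y, hy, rfl⟩, fun hy => ?_⟩
      rw [← hmap] at hy
      obtain ⟨y', hy', he⟩ := hy
      have : y' = y := (MulAut.conj (b * t.1)).injective he
      exact this ▸ hy'
    · obtain ⟨htT, hte⟩ := Finset.mem_filter.1 ht
      obtain ⟨htT', hte'⟩ := Finset.mem_filter.1 ht'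
      rw [hT, Finset.mem_product] at htT htT'
      have ha : t.1 = t'.1 := mul_left_cancel h
      have he := hte.trans hte'.symm
      simp only [hF, ha, mul_left_inj, mul_right_inj] at he
      rw [pow_eq_pow_iff_modEq, hx] at he
      exact Prod.ext ha (he.eq_of_lt_of_lt (Finset.mem_Ico.1 htT.2).2 (Finset.mem_Ico.1 htT'.2).2)
    · have hc' : c ∈ NP := (Finset.mem_filter.1 hc).2
      have hmem : c⁻¹ * x ^ r * c ∈ Subgroup.zpowers x :=
        (Subgroup.mem_normalizer_iff'.1 hc' _).2 (by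
          rw [show c * (c⁻¹ * x ^ r) = x ^ r by group]
          exact Subgroup.pow_mem _ (Subgroup.mem_zpowers x) _)
      rw [mem_zpowers_iff_mem_range_orderOf, hx] at hmem
      obtain ⟨i, hi, hie⟩ := Finset.mem_image.1 hmem
      have hi' : i ∈ Finset.Ico 1 p := by
        refine Finset.mem_Ico.2 ⟨Nat.one_le_iff_ne_zero.2 fun h0 => ?_, Finset.mem_range.1 hi⟩
        simp only [h0, pow_zero] at hie
        have h2 : c * 1 * c⁻¹ = c * (c⁻¹ * x ^ r * c) * c⁻¹ := by rw [← hie]
        rw [mul_one, mul_inv_cancel, show c * (c⁻¹ * x ^ r * c) * c⁻¹ = x ^ r by group] at h2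
        exact hr' (hx ▸ orderOf_dvd_of_pow_eq_one h2.symm)
      refine ⟨(b⁻¹ * c, i), Finset.mem_filter.2 ⟨?_, ?_⟩, by group⟩
      · rw [hT, Finset.mem_product]
        exact ⟨Finset.mem_univ _, hi'⟩
      · show b⁻¹ * c * x ^ i * (b⁻¹ * c)⁻¹ = g
        rw [show x ^ i = c⁻¹ * x ^ r * c from hie, hbr]
        group
  have hsum := Finset.sum_fiberwise_of_maps_to hmaps (fun t => h (F t))
  rw [Finset.sum_congr rfl (g := fun g => (Nat.card NP : ℂ) * h g) fun g hg => by
    rw [Finset.sum_congr rfl (g := fun _ => h g) fun t ht => by rw [(Finset.mem_filter.1 ht).2],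
      Finset.sum_const, hfib g hg, nsmul_eq_mul], ← Finset.mul_sum] at hsum
  rw [hsum, hT, Finset.sum_product]
  simp only [hF, hconj]
  rw [Finset.sum_const, Finset.card_univ, ← Nat.card_eq_fintype_card, nsmul_eq_mul]

end Cfsg.Agent.Blocks.TwoPrimeOrder
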