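import Cfsg.Agent.Blocks.TwoPrimeOrder.Main
import Cfsg.Agent.Linear.IsoAlternating

/-!
Simple groups of order `p * r * q ^ b`.
-/

set_option autoImplicit false
set_option linter.style.haveILetI false

namespace Cfsg.Agent.Blocks.TwoPrimeOrder

open Cfsg Cfsg.Agent Screen.BrauerP

universe u

/-- A simple group whose order is divisible by two exactly once has order two. -/
theorem false_of_two_once {G : Type u} [Group G] [Finite G] [IsSimpleGroup G]
    (h2 : 2 ∣ Nat.card G) (h4 : ¬ 4 ∣ Nat.card G) (hlt : 2 < Nat.card G) : False := by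
  haveI : Fact (Nat.Prime 2) := ⟨Nat.prime_two⟩
  obtain ⟨P⟩ : Nonempty (Sylow 2 G) := inferInstance
  have hPc : Nat.card (P : Subgroup G) = 2 := by
    obtain ⟨k, hk⟩ := P.2.exists_card_eq
    have hd := P.dvd_card_of_dvd_card h2
    rw [hk] at hd ⊢
    rcases k with _ | _ | k
    · norm_num at hd
    · rfl
    · exfalso
      refine h4 ((pow_dvd_pow 2 (show 2 ≤ k + 1 + 1 by omega)).trans ?_)
      rw [← hk]; exact (P : Subgroup G).card_subgroup_dvd_card
  have hcyc : IsCyclic (P : Subgroup G) := isCyclic_of_prime_card hPc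
  have hmin : (Nat.card G).minFac = 2 := Nat.minFac_eq_two_iff _ |>.2 h2
  have hc := IsCyclic.isComplement' hmin hcyc
  set K := (MonoidHom.transferSylow P (hcyc.normalizer_le_centralizer hmin)).ker
  have hmul := hc.card_mul_card
  rcases (inferInstance : K.Normal).eq_bot_or_eq_top with h | h
  · rw [h, Subgroup.card_bot, one_mul, hPc] at hmul; omega
  · rw [h, Subgroup.card_top, hPc] at hmul; omega

theorem exp_facts_plus {m : ℕ} (hm : 1 ≤ m) (h1 : (2 ^ m + 1).Prime)
    (h2 : (2 ^ (m - 1) + 1).Prime) : m ≤ 2 := by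
  by_contra hlt
  have key : ∀ n : ℕ, Odd n → (2 ^ n + 1).Prime → n = 1 := fun n hn hp => by
    have h3 : 3 ∣ 2 ^ n + 1 := by
      simpa using (hn.nat_add_dvd_pow_add_pow 2 1)
    have h4 := (Nat.prime_dvd_prime_iff_eq Nat.prime_three hp).1 h3
    have h5 : 2 ^ n = 2 ^ 1 := by omega
    exact Nat.pow_right_injective le_rfl h5
  rcases Nat.even_or_odd m with h | h
  · have := key (m - 1) (by obtain ⟨k, hk⟩ := h; exact ⟨k - 1, by omega⟩) h2
    omega
  · have := key m h h1
    omega

theorem exp_facts_minus {m : ℕ} (hm : 1 ≤ m) (h1 : (2 ^ m - 1).Prime)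
    (h2 : (2 ^ (m - 1) - 1).Prime) : m ≤ 3 := by
  by_contra hlt
  have key : ∀ n : ℕ, Even n → (2 ^ n - 1).Prime → n = 2 := fun n hn hp => by
    obtain ⟨k, hk⟩ := hn
    have h3 : 3 ∣ 2 ^ n - 1 := by
      rw [hk, ← two_mul, pow_mul, show (2 : ℕ) ^ 2 = 4 from rfl]
      simpa using Nat.sub_dvd_pow_sub_pow 4 1 k
    have h4 := (Nat.prime_dvd_prime_iff_eq Nat.prime_three hp).1 h3
    have h6 := Nat.one_le_two_pow (n := n)
    have h5 : 2 ^ n = 2 ^ 2 := by omega
    exact Nat.pow_right_injective le_rfl h5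
  rcases Nat.even_or_odd m with h | h
  · have := key m h h1
    omega
  · have := key (m - 1) (by obtain ⟨k, hk⟩ := h; exact ⟨k, by omega⟩) h2
    omega

theorem pow_even_eq {q b n : ℕ} (hq : q.Prime) (h : q ^ b = n) (hn : 2 ∣ n) : q = 2 := by
  have h1 : 2 ∣ q ^ b := by rw [h]; exact hn
  exact ((Nat.prime_dvd_prime_iff_eq Nat.prime_two hq).1 (Nat.prime_two.dvd_of_dvd_pow h1)).symm

theorem core {G : Type u} [Group G] [Finite G] [IsSimpleGroup G] (hG : ¬ IsCyclic G)
    (p q r b : ℕ) (hp : p.Prime) (hq : q.Prime) (hr : r.Prime) (hpq : p ≠ q) (hqr : q ≠ r)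
    (hrp : r < p) (hG' : Nat.card G = p * r * q ^ b) :
    (∃ (F : Type) (_ : Field F) (_ : Fintype F), Fintype.card F = 5 ∧
      Nonempty (G ≃* Matrix.ProjectiveSpecialLinearGroup (Fin 2) F)) ∨
    (∃ (F : Type) (_ : Field F) (_ : Fintype F), Fintype.card F = 7 ∧
      Nonempty (G ≃* Matrix.ProjectiveSpecialLinearGroup (Fin 2) F)) := by
  have hr2 := hr.two_le
  rcases Nat.lt_or_ge r (p - 1) with hlt | hge
  swap
  · exfalso
    have hp3 : p = 3 ∧ r = 2 := by
      rcases hp.eq_two_or_odd with h | h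
      · omega
      rcases hr.eq_two_or_odd with h' | h' <;> omega
    obtain ⟨rfl, rfl⟩ := hp3
    have hq2 : q ≠ 2 := hqr
    have hodd : ¬ 2 ∣ q ^ b := fun h =>
      hq2 ((Nat.prime_dvd_prime_iff_eq Nat.prime_two hq).1 (Nat.prime_two.dvd_of_dvd_pow h)).symm
    have h6 := Nat.pos_of_ne_zero (pow_ne_zero b hq.ne_zero)
    exact false_of_two_once (G := G) (by rw [hG']; omega) (by rw [hG']; omega) (by rw [hG']; omega)
  have hG'' : Nat.card G = p * q ^ b * r := by rw [hG']; ring
  rcases main hG p q b r hp hq hpq hG'' hlt with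
    ⟨m, F, iF, iFt, hcF, hm, ⟨e⟩⟩ | ⟨m, F, iF, iFt, hcF, hpm, h3, ⟨e⟩⟩
  · have hc := Nat.card_congr e.toEquiv
    have h := S0243.result hcF 2 le_rfl
    have hp2 : p ≠ 2 := by omega
    have hg : Nat.gcd 2 (p - 1) = 2 := Nat.gcd_eq_left (by
      have := hp.eq_two_or_odd.resolve_left hp2; omega)
    rw [hg, Fin.prod_univ_two] at h
    simp only [Fin.val_zero, Fin.val_one, pow_zero, pow_one] at h
    rw [← hc, hG''] at h
    obtain ⟨s, hs⟩ : ∃ s, p = s + 1 := ⟨p - 1, by omega⟩
    have hkey : 2 * (q ^ b * r) = s * (s + 2) := by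
      subst hs
      rw [Nat.add_sub_cancel, show (s + 1) ^ 2 - 1 = s * (s + 2) by
        rw [show (s + 1) ^ 2 = s * (s + 2) + 1 by ring, Nat.add_sub_cancel],
        show (s + 1) ^ 2 - (s + 1) = (s + 1) * s by
          rw [show (s + 1) ^ 2 = (s + 1) * s + (s + 1) by ring, Nat.add_sub_cancel]] at h
      refine Nat.eq_of_mul_eq_mul_left (show 0 < s * (s + 1) from Nat.mul_pos (by omega) (by omega)) ?_
      linarith
    have hm1 : 1 ≤ m := by
      rcases Nat.eq_zero_or_pos m with h0 | h0
      · subst h0; rcases hm with h' | h' <;> simp at h' <;> omega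
      · exact h0
    have h2m : 2 ^ m = 2 * 2 ^ (m - 1) := by rw [← pow_succ', Nat.sub_add_cancel hm1]
    set k := 2 ^ (m - 1) with hk
    have hk0 : 0 < k := Nat.two_pow_pos _
    rcases hm with hm | hm
    · -- `p = 2 ^ m + 1`
      have hsk : s = 2 * k := by omega
      have hk2 : q ^ b * r = 2 * k * (k + 1) := by
        rw [hsk] at hkey; linarith
      have h3p : 3 < p := by omega
      have hk2' : 2 ≤ k := by omega
      have hev : 2 ∣ k := by
        rw [hk]; exact dvd_pow_self 2 (fun h0 => by rw [hk, h0] at hk2'; omega)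
      have hodd : ¬ 2 ∣ k + 1 := by omega
      rcases eq_or_ne q 2 with h2 | h2
      · subst h2
        have hr_eq : r = k + 1 := by
          have hcop : Nat.Coprime (k + 1) (2 ^ b) :=
            (Nat.prime_two.coprime_iff_not_dvd.2 hodd).symm.pow_right b
          have h4 : k + 1 ∣ r := hcop.dvd_of_dvd_mul_left ⟨2 * k, by rw [hk2]; ring⟩
          exact ((Nat.dvd_prime hr).1 h4).resolve_left (by omega) |>.symm
        have hm2 := exp_facts_plus hm1 (hm ▸ hp) (hk ▸ hr_eq ▸ hr)
        have hp5 : p = 5 := by interval_cases m <;> simp_all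
        exact Or.inl ⟨F, iF, iFt, hcF.trans hp5, ⟨e⟩⟩
      · exfalso
        have hr2' : r = 2 := by
          have h5 : 2 ∣ q ^ b * r := ⟨k * (k + 1), by rw [hk2]; ring⟩
          rcases Nat.prime_two.dvd_mul.1 h5 with h6 | h6
          · exact absurd ((Nat.prime_dvd_prime_iff_eq Nat.prime_two hq).1
              (Nat.prime_two.dvd_of_dvd_pow h6)).symm h2
          · exact ((Nat.prime_dvd_prime_iff_eq Nat.prime_two hr).1 h6).symm
        subst hr2'
        exact h2 (pow_even_eq hq (show q ^ b = k * (k + 1) by linarith) (hev.mul_right _))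
    · -- `p = 2 ^ m - 1`
      have hsk : s + 2 = 2 * k := by omega
      obtain ⟨l, hl⟩ : ∃ l, k = l + 1 := ⟨k - 1, by omega⟩
      have hk2 : q ^ b * r = 2 * k * l := by
        rw [hsk, show s = 2 * l by omega] at hkey; linarith
      have hev : 2 ∣ k := by
        rw [hk]; exact dvd_pow_self 2 (fun h0 => by rw [h0, pow_zero] at hk; omega)
      have hodd : ¬ 2 ∣ l := by omega
      rcases eq_or_ne q 2 with h2 | h2
      · subst h2
        have hr_eq : r = l := by
          have hcop : Nat.Coprime l (2 ^ b) :=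
            (Nat.prime_two.coprime_iff_not_dvd.2 hodd).symm.pow_right b
          have h4 : l ∣ r := hcop.dvd_of_dvd_mul_left ⟨2 * k, by rw [hk2]; ring⟩
          rcases (Nat.dvd_prime hr).1 h4 with h5 | h5
          · exfalso
            subst h5
            have hk2'' : k = 2 := by omega
            rw [hk2''] at hk2
            have h6 : r ∣ 2 ^ 2 := ⟨2 ^ b, by rw [mul_comm r]; omega⟩
            exact hqr ((Nat.prime_dvd_prime_iff_eq hr Nat.prime_two).1 (hr.dvd_of_dvd_pow h6)).symm
          · exact h5.symm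
        have hl' : 2 ^ (m - 1) - 1 = r := by omega
        have hm2 := exp_facts_minus hm1 (hm ▸ hp) (hl' ▸ hr)
        have hp7 : p = 7 := by interval_cases m <;> simp_all
        exact Or.inr ⟨F, iF, iFt, hcF.trans hp7, ⟨e⟩⟩
      · exfalso
        have hr2' : r = 2 := by
          have h5 : 2 ∣ q ^ b * r := ⟨k * l, by rw [hk2]; ring⟩
          rcases Nat.prime_two.dvd_mul.1 h5 with h6 | h6
          · exact absurd ((Nat.prime_dvd_prime_iff_eq Nat.prime_two hq).1
              (Nat.prime_two.dvd_of_dvd_pow h6)).symm h2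
          · exact ((Nat.prime_dvd_prime_iff_eq Nat.prime_two hr).1 h6).symm
        subst hr2'
        exact h2 (pow_even_eq hq (show q ^ b = k * l by linarith) (hev.mul_right _))
  · have hm1 : 1 ≤ m := by
      rcases Nat.eq_zero_or_pos m with h0 | h0
      · subst h0; simp at hpm; omega
      · exact h0
    obtain ⟨hcard, -⟩ := card_sl2_even hm1 hcF
    have hiso := (card_sl2_even hm1 hcF).2
    obtain ⟨e'⟩ := hiso
    have hc := Nat.card_congr (e.trans e'.symm).toEquiv
    rw [hcard, hG''] at hc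
    set n := 2 ^ m with hn
    have hn2 : 4 ≤ n := by
      rw [hn]
      calc 4 = 2 ^ 2 := rfl
        _ ≤ 2 ^ m := Nat.pow_le_pow_right two_pos (by
          by_contra hlt2
          have : m = 1 := by omega
          subst this
          norm_num at hpm
          omega)
    obtain ⟨l, hl⟩ : ∃ l, n = l + 1 := ⟨n - 1, by omega⟩
    have hkey : q ^ b * r = n * l := by
      refine Nat.eq_of_mul_eq_mul_left hp.pos ?_
      rw [show n ^ 2 - 1 = p * l by
        rw [hpm, hl, show (l + 1) ^ 2 = (l + 1 + 1) * l + 1 by ring, Nat.add_sub_cancel]] at hc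
      linarith
    have hev : 2 ∣ n := by rw [hn]; exact dvd_pow_self 2 (by omega)
    have hodd : ¬ 2 ∣ l := by omega
    rcases eq_or_ne q 2 with h2 | h2
    · subst h2
      have hr_eq : r = l := by
        have hcop : Nat.Coprime l (2 ^ b) :=
          (Nat.prime_two.coprime_iff_not_dvd.2 hodd).symm.pow_right b
        have h4 : l ∣ r := hcop.dvd_of_dvd_mul_left ⟨n, by rw [hkey]; ring⟩
        exact ((Nat.dvd_prime hr).1 h4).resolve_left (by omega) |>.symm
      have hm2 : m = 2 := by
        rcases Nat.even_or_odd m with h | h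
        · obtain ⟨k, hk⟩ := h
          have h3d : 3 ∣ l := by
            have hl' : l = 4 ^ k - 1 := by
              have : n = 4 ^ k := by
                rw [hn, hk, ← two_mul, pow_mul]; norm_num
              omega
            rw [hl']
            simpa using Nat.sub_dvd_pow_sub_pow 4 1 k
          have h4 := (Nat.prime_dvd_prime_iff_eq Nat.prime_three hr).1 (hr_eq ▸ h3d)
          have h5 : 2 ^ m = 2 ^ 2 := by omega
          exact Nat.pow_right_injective le_rfl h5
        · have h3d : 3 ∣ p := by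
            rw [hpm, hn]
            simpa using (h.nat_add_dvd_pow_add_pow 2 1)
          have := (Nat.prime_dvd_prime_iff_eq Nat.prime_three hp).1 h3d
          omega
      subst hm2
      obtain ⟨e4⟩ := Linear.PSL2_four_iso (F := F) (by rw [hcF]; rfl)
      haveI : Fact (Nat.Prime 5) := ⟨by norm_num⟩
      obtain ⟨e5⟩ := Linear.PSL2_five_iso (F := ZMod 5) (ZMod.card 5)
      exact Or.inl ⟨ZMod 5, inferInstance, inferInstance, ZMod.card 5,
        ⟨e.trans (e4.trans e5.symm)⟩⟩
    · exfalso
      have hr2' : r = 2 := by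
        have h5 : 2 ∣ q ^ b * r := by rw [hkey]; exact hev.mul_right _
        rcases Nat.prime_two.dvd_mul.1 h5 with h6 | h6
        · exact absurd ((Nat.prime_dvd_prime_iff_eq Nat.prime_two hq).1
            (Nat.prime_two.dvd_of_dvd_pow h6)).symm h2
        · exact ((Nat.prime_dvd_prime_iff_eq Nat.prime_two hr).1 h6).symm
      subst hr2'
      have h4 : 4 ∣ n := by rw [hn]; exact pow_dvd_pow 2 (show 2 ≤ m by
        by_contra hlt2
        have : m = 1 := by omega
        subst this
        omega)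
      obtain ⟨c, hc4⟩ := h4
      exact h2 (pow_even_eq hq (show q ^ b = 2 * c * l by rw [hc4] at hkey; linarith)
        (Dvd.intro (c * l) (by ring)))

end Cfsg.Agent.Blocks.TwoPrimeOrder
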