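import Cfsg.Agent.Blocks.TwoPrimeOrder.Steps

/-!
Two exceptional characters: the order is at most `p * 2e * (e + 1)`.
-/

set_option autoImplicit false
set_option linter.style.haveILetI false
set_option linter.unusedSectionVars false
set_option maxHeartbeats 1600000

namespace Cfsg.Agent.Blocks.TwoPrimeOrder

open Cfsg Cfsg.Agent Screen.BrauerP
open scoped ComplexConjugate

universe u

variable {G : Type u} [Group G] [Fintype G]

namespace Shape

variable {p : ℕ} [hp : Fact p.Prime] {x : G} (S : Shape p x)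
include S

/-- An involution inverting the singular element. -/
theorem exists_inverting : ∃ u : G, u * u = 1 ∧ u ≠ 1 ∧ u * x * u = x⁻¹ := by
  haveI : Fact (Nat.Prime 2) := ⟨Nat.prime_two⟩
  have h2 : 2 ∣ Nat.card (Subgroup.normalizer ((Subgroup.zpowers x : Subgroup G) : Set G)) := by
    rw [S.card_N]; exact dvd_mul_of_dvd_right S.e_even p
  obtain ⟨⟨u, huN⟩, huo⟩ := exists_prime_orderOf_dvd_card' 2 h2
  rw [← Subgroup.orderOf_coe] at huo
  change orderOf u = 2 at huo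
  have huu : u * u = 1 := by rw [← sq, ← huo, pow_orderOf_eq_one]
  refine ⟨u, huu, fun h => by simp [h] at huo, ?_⟩
  have hmem : u * x * u ∈ Subgroup.zpowers x := by
    have h := (Subgroup.mem_normalizer_iff.1 huN x).1 (Subgroup.mem_zpowers x)
    rwa [inv_eq_of_mul_eq_one_right huu] at h
  by_contra hne
  have hw : x * (u * x * u) ∈ Subgroup.zpowers x :=
    Subgroup.mul_mem _ (Subgroup.mem_zpowers x) hmem
  have hw1 : x * (u * x * u) ≠ 1 := fun h => hne (inv_eq_of_mul_eq_one_right h).symm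
  have hxy : Commute x (u * x * u) := by
    obtain ⟨j, hj⟩ := hmem
    rw [← hj]; exact (Commute.refl x).zpow_right j
  have hcomm : u * (x * (u * x * u)) = x * (u * x * u) * u :=
    calc u * (x * (u * x * u)) = (u * x * u) * x * u := by simp only [mul_assoc]
      _ = x * (u * x * u) * u := by rw [hxy.eq]
  have hu : u ∈ Subgroup.zpowers x := by
    rw [← S.centralizer_pow hw hw1, Subgroup.mem_centralizer_singleton_iff]
    exact hcomm
  have h := Subgroup.orderOf_dvd_natCard _ hu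
  rw [Nat.card_zpowers, S.hx, huo] at h
  have := Nat.le_of_dvd hp.out.pos h
  have := (Nat.prime_dvd_prime_iff_eq Nat.prime_two hp.out).1 h
  have := S.hp5
  omega

/-- The elements inverting `x` form one coset. -/
theorem inverter_form {u a : G} (huu : u * u = 1) (hux : u * x * u = x⁻¹) (haa : a * a = 1)
    (hax : a * x * a = x⁻¹) : u * a ∈ Subgroup.zpowers x := by
  rw [← S.hC, Subgroup.mem_centralizer_singleton_iff]
  have h1 : a * x = x⁻¹ * a := by
    rw [← hax, mul_assoc _ a a, haa, mul_one]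
  have h2 : u * x⁻¹ = x * u := by
    rw [← hux, ← mul_assoc, ← mul_assoc, huu, one_mul]
  calc u * a * x = u * (a * x) := mul_assoc _ _ _
    _ = u * x⁻¹ * a := by rw [h1, mul_assoc]
    _ = x * (u * a) := by rw [h2, mul_assoc]

/-- A member of `Y` is real. -/
theorem Y_real {u : G} (huu : u * u = 1) (hux : u * x * u = x⁻¹) {θ : IrrCharacter G}
    (hθ : θ ∈ S.D.Y) (g : G) : conj ((θ : G → ℂ) g) = (θ : G → ℂ) g := by
  set θ' : IrrCharacter G := ⟨fun g => conj ((θ : G → ℂ) g), Chars.isIrrCharacter_star θ.2⟩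
  have hv : ∀ g, (θ' : G → ℂ) g = conj ((θ : G → ℂ) g) := fun g => rfl
  have hd' : charDegree (θ' : G → ℂ) = p - S.D.e := by
    have h := hv 1
    rw [S.Y_deg_val hθ, map_natCast, apply_one_eq_deg] at h
    exact_mod_cast h
  have hlt := S.deg_lt
  have hY : θ' ∈ S.D.Y := by
    by_contra hnY
    by_cases hX : θ' ∈ S.D.X
    · by_cases hone : θ' = Blocks.oneChar G
      · rw [hone] at hd'
        simp [Blocks.coe_oneChar, charDegree] at hd'
        omega
      · have := (S.X_deg_facts hX hone).1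
        omega
    · have := Nat.le_of_dvd (by omega) (S.dvd_deg_of_not_mem hX hnY)
      omega
  by_cases hg : p ∣ orderOf g
  · obtain ⟨a, ha, -⟩ := S.exists_conj hg
    have hc := Chars.irr_isCharacter θ
    rw [← Chars.isCharacter_conj_apply hc g a, ← Chars.char_inv_eq_conj hc]
    obtain ⟨j, hj⟩ := ha
    rw [← hj, ← _root_.inv_zpow, ← hux]
    conv_lhs => rw [show u * x * u = u * x * u⁻¹ by rw [inv_eq_of_mul_eq_one_right huu], conj_zpow,
      Chars.isCharacter_conj_apply hc]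
  · rw [← hv]
    exact S.D.Y_reg θ' hY θ hθ g hg

/-- The case of two exceptional characters. -/
theorem half_case (ht : S.D.t = 2) (hi : 2 ≤ S.i) :
    p = 2 ^ (S.i + 1) + 1 ∧ Nat.card G < p ^ 3 := by
  classical
  have hp5 := S.hp5
  have hlt := S.deg_lt
  have het := S.D.mul_et
  rw [ht] at het
  have hpe : p = 2 * S.D.e + 1 := by omega
  refine ⟨by have := S.he; rw [pow_succ]; omega, ?_⟩
  have hg0 : p - S.D.e = S.D.e + 1 := by omega
  have he4 : 4 ∣ S.D.e := by rw [S.he]; exact pow_dvd_pow 2 hi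
  have he4' : 4 ≤ S.D.e := Nat.le_of_dvd S.D.e_pos he4
  obtain ⟨u, huu, hu1, hux⟩ := S.exists_inverting
  obtain ⟨θa, θb, hab, hY⟩ := Finset.card_eq_two.1 (by rw [S.D.card_Y, ht] : S.D.Y.card = 2)
  have haY : θa ∈ S.D.Y := by rw [hY]; simp
  have hbY : θb ∈ S.D.Y := by rw [hY]; simp
  have hreal := fun g => S.Y_real huu hux haY g
  set Fa : G → ℂ := fun g => (θa : G → ℂ) g * (θa : G → ℂ) g with hFa
  set Fb : G → ℂ := fun g => (θa : G → ℂ) g * (θb : G → ℂ) g with hFb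
  have hFac : IsCharacter G Fa :=
    Chars.isCharacter_mul (Chars.irr_isCharacter θa) (Chars.irr_isCharacter θa)
  have hFbc : IsCharacter G Fb :=
    Chars.isCharacter_mul (Chars.irr_isCharacter θa) (Chars.irr_isCharacter θb)
  obtain ⟨ma, hma, hsa⟩ := Chars.exists_eq_sum_nsmul hFac
  obtain ⟨mb, hmb, hsb⟩ := Chars.exists_eq_sum_nsmul hFbc
  have hexp : ∀ g, Fa g = ∑ χ : IrrCharacter G, (ma χ : ℂ) * (χ : G → ℂ) g := fun g => by
    conv_lhs => rw [hsa]
    simp [Finset.sum_apply, Pi.smul_apply, nsmul_eq_mul]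
  have hexpb : ∀ g, Fb g = ∑ χ : IrrCharacter G, (mb χ : ℂ) * (χ : G → ℂ) g := fun g => by
    conv_lhs => rw [hsb]
    simp [Finset.sum_apply, Pi.smul_apply, nsmul_eq_mul]
  have hdsum : (∑ χ : IrrCharacter G, ma χ * charDegree (χ : G → ℂ)) = (p - S.D.e) * (p - S.D.e) ∧
      (∑ χ : IrrCharacter G, mb χ * charDegree (χ : G → ℂ)) = (p - S.D.e) * (p - S.D.e) := by
    have h1 := hexp 1
    have h2 := hexpb 1
    simp only [hFa, hFb, apply_one_eq_deg, S.hdY θa haY, S.hdY θb hbY] at h1 h2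
    exact ⟨by exact_mod_cast h1.symm, by exact_mod_cast h2.symm⟩
  -- multiplicities of the principal character
  set one := Blocks.oneChar G with hone
  have hinner : ∀ ψ : IrrCharacter G, classInner (fun g => (θa : G → ℂ) g * (ψ : G → ℂ) g)
      (one : G → ℂ) = classInner (ψ : G → ℂ) (θa : G → ℂ) := fun ψ => by
    rw [Chars.classInner_def, Chars.classInner_def]
    congr 1
    refine Finset.sum_congr rfl fun g _ => ?_
    rw [hreal g, hone, Blocks.coe_oneChar, map_one, mul_one, mul_comm]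
  have hma1 : ma one = 1 := by
    have h := (hma one).symm.trans (hinner θa)
    rw [Chars.classInner_self_irr θa.2] at h
    exact_mod_cast h
  have hmb1 : mb one = 0 := by
    have h := (hmb one).symm.trans (hinner θb)
    rw [Chars.classInner_irr_of_ne θb.2 θa.2 fun h => hab (Subtype.ext h).symm] at h
    exact_mod_cast h
  -- the difference
  set Q : G → ℂ := fun g => Fa g - Fb g with hQ
  have hQc : ∀ a g : G, Q (a * g * a⁻¹) = Q g := fun a g => by
    simp only [hQ, hFa, hFb, Chars.isCharacter_conj_apply (Chars.irr_isCharacter θa),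
      Chars.isCharacter_conj_apply (Chars.irr_isCharacter θb)]
  have hQr : ∀ g : G, ¬ p ∣ orderOf g → Q g = 0 := fun g hg => by
    simp only [hQ, hFa, hFb, S.D.Y_reg θa haY θb hbY g hg, sub_self]
  have hQi : ∀ χ : IrrCharacter G, classInner Q (χ : G → ℂ) = (ma χ : ℂ) - mb χ := fun χ => by
    rw [show Q = Fa - Fb from rfl, Chars.classInner_sub_left, hma, hmb]
  have hQsum : ∑ j ∈ Finset.Ico 1 p, Q (x ^ j) = (p : ℂ) * (S.D.e : ℂ) := by
    have h := S.inner_sing Q hQc hQr one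
    rw [hQi, hma1, hmb1] at h
    simp only [hone, Blocks.coe_oneChar, map_one, mul_one] at h
    rw [← h]; simp
  have hpe0 : (p : ℂ) * (S.D.e : ℂ) ≠ 0 :=
    mul_ne_zero (Nat.cast_ne_zero.2 hp.out.ne_zero) (Nat.cast_ne_zero.2 S.D.e_pos.ne')
  have hmX : ∀ χ ∈ S.D.X, (ma χ : ℤ) - mb χ = S.D.ε χ := fun χ hχ => by
    have h := S.inner_sing Q hQc hQr χ
    rw [Finset.sum_congr rfl (g := fun j => Q (x ^ j) * (S.D.ε χ : ℂ)) fun j hj => by
      rw [S.X_val hχ (Subgroup.pow_mem _ (Subgroup.mem_zpowers x) _) (S.pow_ne hj), map_intCast],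
      ← Finset.sum_mul, hQsum, hQi] at h
    have h' := mul_left_cancel₀ hpe0 h
    exact_mod_cast h'
  have hmY : (∑ θ ∈ S.D.Y, (ma θ : ℤ)) - ∑ θ ∈ S.D.Y, (mb θ : ℤ) = 1 := by
    have h : (p : ℂ) * (S.D.e : ℂ) * ∑ θ ∈ S.D.Y, ((ma θ : ℂ) - mb θ) =
        (p : ℂ) * (S.D.e : ℂ) * 1 := by
      rw [Finset.mul_sum, Finset.sum_congr rfl fun θ _ => by
        rw [← hQi, S.inner_sing Q hQc hQr θ], Finset.sum_comm, mul_one, ← hQsum]
      refine Finset.sum_congr rfl fun j hj => ?_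
      rw [← Finset.mul_sum, ← map_sum,
        S.Y_val_sum (Subgroup.pow_mem _ (Subgroup.mem_zpowers x) _) (S.pow_ne hj), map_one, mul_one]
    have h' := mul_left_cancel₀ hpe0 h
    rw [Finset.sum_sub_distrib] at h'
    exact_mod_cast h'
  -- the degrees of the characters of the block
  set Xp := S.D.X.erase one with hXp
  have hXpc : Xp.card = S.D.e - 1 := by rw [hXp, Finset.card_erase_of_mem S.D.one_mem, S.D.card_X]
  choose k hk1 hk using fun (χ : IrrCharacter G) (hχ : χ ∈ Xp) =>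
    (S.X_deg_facts (Finset.mem_of_mem_erase hχ) (Finset.ne_of_mem_erase hχ)).2.2.2
  have hsplit : ∀ f : IrrCharacter G → ℕ, f one + ∑ χ ∈ Xp, f χ + ∑ θ ∈ S.D.Y, f θ +
      ∑ χ ∈ (S.D.X ∪ S.D.Y)ᶜ, f χ = ∑ χ, f χ := fun f => by
    rw [← Finset.sum_add_sum_compl (S.D.X ∪ S.D.Y) f, Finset.sum_union S.D.disj, hXp,
      Finset.add_sum_erase _ _ S.D.one_mem]
  have hone_deg : charDegree (one : G → ℂ) = 1 := by simp [hone, Blocks.coe_oneChar, charDegree]
  have hYd : ∀ m : IrrCharacter G → ℕ, ∑ θ ∈ S.D.Y, m θ * charDegree (θ : G → ℂ) =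
      (∑ θ ∈ S.D.Y, m θ) * (p - S.D.e) := fun m => by
    rw [Finset.sum_mul]; exact Finset.sum_congr rfl fun θ hθ => by rw [S.hdY θ hθ]
  have hrel1 : (1 : ℤ) + (∑ χ ∈ Xp, S.D.ε χ * (charDegree (χ : G → ℂ) : ℤ)) +
      ((p - S.D.e : ℕ) : ℤ) = 0 := by
    have h := S.rel haY (g := 1) (by rw [orderOf_one]; exact hp.out.not_dvd_one)
    simp only [apply_one_eq_deg, S.hdY θa haY] at h
    exact_mod_cast h
  have hYpos : 1 ≤ ∑ θ ∈ S.D.Y, ma θ := by
    have h2 : (1 : ℤ) ≤ ((∑ θ ∈ S.D.Y, ma θ : ℕ) : ℤ) := by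
      push_cast
      linarith [hmY, Finset.sum_nonneg (s := S.D.Y) fun θ _ => Int.natCast_nonneg (mb θ)]
    exact_mod_cast h2
  have hdeg : ∀ χ ∈ Xp, (charDegree (χ : G → ℂ) : ℤ) = p + S.D.ε χ := by
    have hge : ∀ χ ∈ Xp, (1 : ℤ) ≤ (ma χ : ℤ) + mb χ := fun χ hχ => by
      have := hmX χ (Finset.mem_of_mem_erase hχ)
      rcases S.D.sign χ (Finset.mem_of_mem_erase hχ) with h | h <;> omega
    have htot : (1 : ℤ) + (∑ χ ∈ Xp, (charDegree (χ : G → ℂ) : ℤ)) + ((p - S.D.e : ℕ) : ℤ) ≤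
        2 * (((p - S.D.e : ℕ) : ℤ) * ((p - S.D.e : ℕ) : ℤ)) := by
      have h1 := hsplit fun χ => (ma χ + mb χ) * charDegree (χ : G → ℂ)
      rw [hma1, hmb1, hone_deg, hYd (fun χ => ma χ + mb χ), Finset.sum_congr rfl
        (s₂ := (Finset.univ : Finset (IrrCharacter G))) fun χ _ => add_mul (ma χ) (mb χ) _,
        Finset.sum_add_distrib (s := (Finset.univ : Finset (IrrCharacter G))), hdsum.1, hdsum.2]
        at h1
      have h2 : ∑ χ ∈ Xp, charDegree (χ : G → ℂ) ≤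
          ∑ χ ∈ Xp, (ma χ + mb χ) * charDegree (χ : G → ℂ) :=
        Finset.sum_le_sum fun χ hχ => Nat.le_mul_of_pos_left _ (by have := hge χ hχ; omega)
      have h3 : p - S.D.e ≤ (∑ θ ∈ S.D.Y, (ma θ + mb θ)) * (p - S.D.e) :=
        Nat.le_mul_of_pos_left _ (by rw [Finset.sum_add_distrib]; omega)
      have h4 : 1 + ∑ χ ∈ Xp, charDegree (χ : G → ℂ) + (p - S.D.e) ≤
          2 * ((p - S.D.e) * (p - S.D.e)) := by omega
      exact_mod_cast h4
    have hk3 : ∀ χ, ∀ hχ : χ ∈ Xp, k χ hχ ≤ 3 := by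
      intro χ hχ
      by_contra hlt4
      have hd4 : 4 * (p : ℤ) - 1 ≤ (charDegree (χ : G → ℂ) : ℤ) := by
        rw [hk χ hχ]
        have : 4 * (p : ℤ) ≤ (k χ hχ : ℤ) * p :=
          mul_le_mul_of_nonneg_right (by omega) (Int.natCast_nonneg p)
        rcases S.D.sign χ (Finset.mem_of_mem_erase hχ) with h | h <;> omega
      have hrest : ∀ ψ ∈ Xp.erase χ, (p : ℤ) - 1 ≤ (charDegree (ψ : G → ℂ) : ℤ) := fun ψ hψ => by
        have hψ' := Finset.mem_of_mem_erase hψ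
        rw [hk ψ hψ']
        have : 1 * (p : ℤ) ≤ (k ψ hψ' : ℤ) * p :=
          mul_le_mul_of_nonneg_right (by have := hk1 ψ hψ'; omega) (Int.natCast_nonneg p)
        rcases S.D.sign ψ (Finset.mem_of_mem_erase hψ') with h | h <;> omega
      have h1 := Finset.card_nsmul_le_sum _ _ _ hrest
      rw [Finset.card_erase_of_mem hχ, hXpc, nsmul_eq_mul] at h1
      rw [← Finset.add_sum_erase _ _ hχ, hg0] at htot
      rw [show S.D.e - 1 - 1 = S.D.e - 2 by omega, Nat.cast_sub (show 2 ≤ S.D.e by omega)] at h1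
      push_cast at h1 htot
      have hpz : (p : ℤ) = 2 * (S.D.e : ℤ) + 1 := by exact_mod_cast hpe
      nlinarith
    intro χ hχ
    rw [hk χ hχ]
    suffices h : k χ hχ = 1 by rw [h, Nat.cast_one, one_mul]
    obtain ⟨-, h2, hdvd, -⟩ := S.X_deg_facts (Finset.mem_of_mem_erase hχ) (Finset.ne_of_mem_erase hχ)
    have hkk := hk χ hχ
    have h1' := hk1 χ hχ
    have h3' := hk3 χ hχ
    obtain ⟨c, hc⟩ := h2
    obtain ⟨a, ha⟩ := he4
    by_contra hne
    rcases (show k χ hχ = 2 ∨ k χ hχ = 3 by omega) with h | h <;> rw [h] at hkk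
    · rcases S.D.sign χ (Finset.mem_of_mem_erase hχ) with hε | hε <;> omega
    · rw [hg0] at hdvd
      have hcop : ∀ α : ℕ, ¬ 2 ∣ α → α ∣ charDegree (χ : G → ℂ) → α ∣ S.D.e + 1 := fun α hα hd =>
        ((Nat.prime_two.coprime_iff_not_dvd.2 hα).symm.pow_right S.b).dvd_of_dvd_mul_left
          (hd.trans hdvd)
      rcases S.D.sign χ (Finset.mem_of_mem_erase hχ) with hε | hε <;> rw [hε] at hkk
      · have := Nat.le_of_dvd (by omega) (hcop (6 * a + 1) (by omega) ⟨4, by omega⟩)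
        omega
      · have := Nat.le_of_dvd (by omega) (hcop (3 * S.D.e + 1) (by omega) ⟨2, by omega⟩)
        omega
  -- the number of characters of positive sign
  set Pn := Xp.filter fun χ => S.D.ε χ = 1 with hPn
  set Nn := Xp.filter fun χ => ¬ S.D.ε χ = 1 with hNn
  have hεN : ∀ χ ∈ Nn, S.D.ε χ = -1 := fun χ hχ =>
    (S.D.sign χ (Finset.mem_of_mem_erase (Finset.mem_filter.1 hχ).1)).resolve_left
      (Finset.mem_filter.1 hχ).2
  have hdP : ∀ χ ∈ Pn, charDegree (χ : G → ℂ) = 2 * (S.D.e + 1) := fun χ hχ => by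
    have := hdeg χ (Finset.mem_filter.1 hχ).1
    rw [(Finset.mem_filter.1 hχ).2] at this
    omega
  have hdN : ∀ χ ∈ Nn, charDegree (χ : G → ℂ) = 2 * S.D.e := fun χ hχ => by
    have := hdeg χ (Finset.mem_filter.1 hχ).1
    rw [hεN χ hχ] at this
    omega
  have hcards : Pn.card + Nn.card = S.D.e - 1 := by
    rw [hPn, hNn, Finset.card_filter_add_card_filter_not, hXpc]
  have hPcard : 2 * Pn.card + 2 = S.D.e := by
    have h := hrel1
    rw [← Finset.sum_filter_add_sum_filter_not Xp (fun χ => S.D.ε χ = 1), ← hPn, ← hNn,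
      Finset.sum_congr rfl (g := fun _ => 2 * ((S.D.e : ℤ) + 1)) fun χ hχ => by
        rw [(Finset.mem_filter.1 hχ).2, hdP χ hχ]; push_cast; ring,
      Finset.sum_congr rfl (s₁ := Nn) (g := fun _ => -(2 * (S.D.e : ℤ))) fun χ hχ => by
        rw [hεN χ hχ, hdN χ hχ]; push_cast; ring,
      Finset.sum_const, Finset.sum_const, nsmul_eq_mul, nsmul_eq_mul, hg0] at h
    have hc' : (Pn.card : ℤ) + Nn.card + 1 = S.D.e := by omega
    push_cast at h
    have h5 : (2 * (S.D.e : ℤ) + 1) * ((2 * Pn.card : ℤ) + 2 - S.D.e) = 0 := by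
      linear_combination h + (2 * (S.D.e : ℤ)) * hc'
    rcases mul_eq_zero.1 h5 with h6 | h6 <;> omega
  -- the constituents of the square
  have hP1 : ∀ χ ∈ Pn, 1 ≤ ma χ := fun χ hχ => by
    have := hmX χ (Finset.mem_of_mem_erase (Finset.mem_filter.1 hχ).1)
    rw [(Finset.mem_filter.1 hχ).2] at this
    omega
  have hbudget : (∀ χ ∈ Pn, ma χ = 1) ∧ (∀ χ ∈ Nn, ma χ = 0) ∧ (∑ θ ∈ S.D.Y, ma θ) = 1 ∧
      ∃ φ₀ ∈ (S.D.X ∪ S.D.Y)ᶜ, charDegree (φ₀ : G → ℂ) = p ∧ ma φ₀ = 1 ∧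
        ∀ χ ∈ (S.D.X ∪ S.D.Y)ᶜ, χ ≠ φ₀ → ma χ = 0 := by
    set O := (S.D.X ∪ S.D.Y)ᶜ with hO
    have hOd : ∀ χ ∈ O, p ∣ charDegree (χ : G → ℂ) := fun χ hχ => by
      rw [hO, Finset.mem_compl, Finset.mem_union] at hχ
      push Not at hχ
      exact S.dvd_deg_of_not_mem hχ.1 hχ.2
    obtain ⟨R, hR⟩ : p ∣ ∑ χ ∈ O, ma χ * charDegree (χ : G → ℂ) :=
      Finset.dvd_sum fun χ hχ => dvd_mul_of_dvd_right (hOd χ hχ) _
    have h := hsplit fun χ => ma χ * charDegree (χ : G → ℂ)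
    rw [hma1, hone_deg, hYd, hdsum.1, hR, hg0,
      ← Finset.sum_filter_add_sum_filter_not Xp (fun χ => S.D.ε χ = 1), ← hPn, ← hNn,
      Finset.sum_congr rfl (g := fun χ => ma χ * (2 * (S.D.e + 1))) fun χ hχ => by rw [hdP χ hχ],
      Finset.sum_congr rfl (s₁ := Nn) (g := fun χ => ma χ * (2 * S.D.e)) fun χ hχ => by rw [hdN χ hχ],
      ← Finset.sum_mul, ← Finset.sum_mul] at h
    set A := ∑ χ ∈ Pn, ma χ with hA
    set B := ∑ χ ∈ Nn, ma χ with hB
    set C := ∑ θ ∈ S.D.Y, ma θ with hC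
    have hAge : Pn.card ≤ A := by
      rw [hA, Finset.card_eq_sum_ones]; exact Finset.sum_le_sum hP1
    obtain ⟨a, ha⟩ := Nat.exists_eq_add_of_le hAge
    obtain ⟨c, hc⟩ := Nat.exists_eq_add_of_le hYpos
    rw [ha, hc] at h
    have h' : a * (2 * (S.D.e + 1)) + B * (2 * S.D.e) + c * (S.D.e + 1) + p * R = p := by
      have e1 : Pn.card * (2 * (S.D.e + 1)) + S.D.e + 2 + p = (S.D.e + 1) * (S.D.e + 1) := by
        have : (2 * Pn.card + 2) * (S.D.e + 1) = S.D.e * (S.D.e + 1) := by rw [hPcard]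
        linarith [hpe]
      linarith
    have ha0 : a = 0 := by
      by_contra hne
      have : 1 * (2 * (S.D.e + 1)) ≤ a * (2 * (S.D.e + 1)) := Nat.mul_le_mul_right _ (by omega)
      omega
    have hB1 : B ≤ 1 := by
      by_contra hne
      have : 2 * (2 * S.D.e) ≤ B * (2 * S.D.e) := Nat.mul_le_mul_right _ (by omega)
      omega
    have hc1 : c ≤ 1 := by
      by_contra hne
      have : 2 * (S.D.e + 1) ≤ c * (S.D.e + 1) := Nat.mul_le_mul_right _ (by omega)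
      omega
    have hR1 : R ≤ 1 := by
      by_contra hne
      have : p * 2 ≤ p * R := Nat.mul_le_mul_left _ (by omega)
      omega
    obtain ⟨hB0, hc0, hR'⟩ : B = 0 ∧ c = 0 ∧ R = 1 := by
      subst ha0
      interval_cases B <;> interval_cases c <;> interval_cases R <;> omega
    refine ⟨fun χ hχ => ?_, fun χ hχ => Finset.sum_eq_zero_iff.1 hB0 χ hχ, by omega, ?_⟩
    · have h1 : ∑ χ ∈ Pn, 1 = ∑ χ ∈ Pn, ma χ := by
        rw [← Finset.card_eq_sum_ones, ← hA]; omega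
      exact ((Finset.sum_eq_sum_iff_of_le hP1).1 h1 χ hχ).symm
    rw [hR', mul_one] at hR
    obtain ⟨φ₀, hΦ, hne⟩ : ∃ φ₀ ∈ O, ma φ₀ * charDegree (φ₀ : G → ℂ) ≠ 0 :=
      Finset.exists_ne_zero_of_sum_ne_zero (by rw [hR]; exact hp.out.ne_zero)
    have hm0 := left_ne_zero_of_mul hne
    have hd1 := Nat.le_of_dvd (deg_pos φ₀) (hOd φ₀ hΦ)
    rw [← Finset.add_sum_erase _ _ hΦ] at hR
    have h2 : p ≤ ma φ₀ * charDegree (φ₀ : G → ℂ) :=
      hd1.trans (Nat.le_mul_of_pos_left _ (Nat.pos_of_ne_zero hm0))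
    have h3 : ∑ χ ∈ O.erase φ₀, ma χ * charDegree (χ : G → ℂ) = 0 := by omega
    have h4 : ma φ₀ = 1 := by
      by_contra h5
      have : 2 * p ≤ ma φ₀ * charDegree (φ₀ : G → ℂ) := Nat.mul_le_mul (by omega) hd1
      have := hp.out.pos
      omega
    refine ⟨φ₀, hΦ, ?_, h4, fun χ hχ hne' => ?_⟩
    · rw [h4, one_mul] at hR
      omega
    · exact (mul_eq_zero.1 (Finset.sum_eq_zero_iff.1 h3 χ (Finset.mem_erase.2 ⟨hne', hχ⟩))).resolve_right
        (deg_pos χ).ne'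
  obtain ⟨hmP, hmN, hmYs, φ₀, hΦO, hΦd, hΦm, hmO⟩ := hbudget
  obtain ⟨θ', hθ'Y, hmθ', hmY0⟩ : ∃ θ' ∈ S.D.Y, ma θ' = 1 ∧ ∀ θ ∈ S.D.Y, θ ≠ θ' → ma θ = 0 := by
    obtain ⟨θ', hθ', hne⟩ := Finset.exists_ne_zero_of_sum_ne_zero (by omega :
      ∑ θ ∈ S.D.Y, ma θ ≠ 0)
    rw [← Finset.add_sum_erase _ _ hθ'] at hmYs
    exact ⟨θ', hθ', by omega, fun θ hθ hne' => Finset.sum_eq_zero_iff.1 (by omega :
      ∑ θ ∈ S.D.Y.erase θ', ma θ = 0) θ (Finset.mem_erase.2 ⟨hne', hθ⟩)⟩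
  -- sums supported on the constituents
  have hsupp : ∀ f : IrrCharacter G → ℂ, (∀ χ, ma χ = 0 → f χ = 0) →
      ∑ χ, f χ = f one + ∑ χ ∈ Pn, f χ + f θ' + f φ₀ := fun f hf => by
    rw [← Finset.sum_add_sum_compl (S.D.X ∪ S.D.Y) f, Finset.sum_union S.D.disj,
      ← Finset.add_sum_erase _ _ S.D.one_mem, ← hone, ← hXp,
      ← Finset.sum_filter_add_sum_filter_not Xp (fun χ => S.D.ε χ = 1), ← hPn, ← hNn,
      Finset.sum_eq_zero (s := Nn) (fun χ hχ => hf χ (hmN χ hχ)), add_zero,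
      Finset.sum_eq_single θ' (fun θ hθ hne => hf θ (hmY0 θ hθ hne)) (fun h => absurd hθ'Y h),
      Finset.sum_eq_single φ₀ (fun χ hχ hne => hf χ (hmO χ hχ hne)) (fun h => absurd hΦO h)]
  -- the square of the argument
  set Ψ : G → ℂ := fun g => (θa : G → ℂ) (g * g) with hΨ
  have hΨc : IsClassFunction G Ψ := fun g h => by
    simp only [hΨ]
    rw [show h * g * h⁻¹ * (h * g * h⁻¹) = h * (g * g) * h⁻¹ by group,
      Chars.isCharacter_conj_apply (Chars.irr_isCharacter θa)]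
  choose sa sb hsab1 hsab2 using fun χ : IrrCharacter G => square_split θa χ
  have hsab : ∀ χ, sa χ + sb χ = ma χ := fun χ => by
    have h := (hsab1 χ).symm.trans (hma χ)
    exact_mod_cast h
  set c : IrrCharacter G → ℤ := fun χ => (sa χ : ℤ) - sb χ with hc
  have hc0 : ∀ χ, ma χ = 0 → c χ = 0 := fun χ h => by
    have := hsab χ
    simp only [hc]
    omega
  have hc1 : ∀ χ, ma χ = 1 → c χ = 1 ∨ c χ = -1 := fun χ h => by
    have := hsab χ
    simp only [hc]
    omega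
  have hΨe : ∀ g, Ψ g = ∑ χ : IrrCharacter G, (c χ : ℂ) * (χ : G → ℂ) g := fun g => by
    have h := congrFun (Chars.eq_sum_classInner hΨc) g
    rw [Finset.sum_apply] at h
    rw [h]
    refine Finset.sum_congr rfl fun χ _ => ?_
    rw [Pi.smul_apply, smul_eq_mul]
    simp only [hc, hΨ, hsab2, Int.cast_sub, Int.cast_natCast]
  -- values at the involutions
  have hreg : ∀ w : G, w * w = 1 → ¬ p ∣ orderOf w := fun w hw h => by
    have := Nat.le_of_dvd two_pos (h.trans (orderOf_dvd_of_pow_eq_one (by rw [sq, hw])))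
    omega
  have hFaw : ∀ w : G, w * w = 1 → (θa : G → ℂ) w * (θa : G → ℂ) w =
      1 + ∑ χ ∈ Pn, (χ : G → ℂ) w + (θa : G → ℂ) w + (φ₀ : G → ℂ) w := fun w hw => by
    have h := hexp w
    rw [hsupp _ (fun χ h0 => by rw [h0]; simp), hma1, hmθ', hΦm,
      S.D.Y_reg θ' hθ'Y θa haY w (hreg w hw),
      Finset.sum_congr rfl (g := fun χ : IrrCharacter G => (χ : G → ℂ) w) fun χ hχ => by
        rw [hmP χ hχ]; simp] at h
    simpa [hone, Blocks.coe_oneChar] using h
  have hΨw : ∀ w : G, w * w = 1 → ((p - S.D.e : ℕ) : ℂ) =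
      (c one : ℂ) + ∑ χ ∈ Pn, (c χ : ℂ) * (χ : G → ℂ) w + (c θ' : ℂ) * (θa : G → ℂ) w +
        (c φ₀ : ℂ) * (φ₀ : G → ℂ) w := fun w hw => by
    have h := hΨe w
    rw [hsupp _ (fun χ h0 => by rw [hc0 χ h0]; simp), S.D.Y_reg θ' hθ'Y θa haY w (hreg w hw)] at h
    simp only [hΨ, hw, S.Y_deg_val haY, hone, Blocks.coe_oneChar, mul_one] at h
    exact h
  have hfix : ∀ χ : IrrCharacter G, ∀ (n : ℕ) (s : ℂ),
      (charDegree (χ : G → ℂ) : ℂ) + s = (p : ℂ) * n →
      ∑ j ∈ Finset.Ico 1 p, (χ : G → ℂ) (x ^ j) = s →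
      ∃ a b : ℕ, a + b = n ∧ (χ : G → ℂ) u = (((a : ℤ) - b : ℤ) : ℂ) := by
    intro χ n s h1 h2
    obtain ⟨a, b, hab1, hab2⟩ := inverting_split χ S.hx S.p_odd huu hux
    rw [Finset.range_eq_Ico, Finset.sum_eq_sum_Ico_succ_bot hp.out.pos, pow_zero, zero_add,
      apply_one_eq_deg, h2, h1] at hab1
    refine ⟨a, b, ?_, by rw [hab2]; push_cast; ring⟩
    have h3 := mul_left_cancel₀ (Nat.cast_ne_zero.2 hp.out.ne_zero) hab1
    exact_mod_cast h3.symm
  have hXsum : ∀ χ ∈ S.D.X, ∑ j ∈ Finset.Ico 1 p, (χ : G → ℂ) (x ^ j) =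
      (S.D.ε χ : ℂ) * ((p - 1 : ℕ) : ℂ) := fun χ hχ => by
    rw [Finset.sum_congr rfl (g := fun _ => (S.D.ε χ : ℂ)) fun j hj =>
      S.X_val hχ (Subgroup.pow_mem _ (Subgroup.mem_zpowers x) _) (S.pow_ne hj),
      Finset.sum_const, Nat.card_Ico, nsmul_eq_mul, mul_comm]
  have hp1C : ((p - 1 : ℕ) : ℂ) = 2 * (S.D.e : ℂ) := by
    rw [show p - 1 = 2 * S.D.e by omega]; push_cast; ring
  have hpC : (p : ℂ) = 2 * (S.D.e : ℂ) + 1 := by exact_mod_cast hpe
  have hPu : ∀ χ ∈ Pn, ∃ s : ℤ, (χ : G → ℂ) u = (s : ℂ) ∧ (s = 2 ∨ s = 0 ∨ s = -2) := by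
    intro χ hχ
    obtain ⟨a, b, h1, h2⟩ := hfix χ 2 _ (by
      rw [hdP χ hχ, (Finset.mem_filter.1 hχ).2, hp1C, hpC]; push_cast; ring)
      (hXsum χ (Finset.mem_of_mem_erase (Finset.mem_filter.1 hχ).1))
    exact ⟨_, h2, by omega⟩
  have hNu : ∀ χ ∈ Nn, (χ : G → ℂ) u = 0 := by
    intro χ hχ
    obtain ⟨a, b, h1, h2⟩ := hfix χ 0 _ (by
      rw [hdN χ hχ, hεN χ hχ, hp1C]; push_cast; ring)
      (hXsum χ (Finset.mem_of_mem_erase (Finset.mem_filter.1 hχ).1))
    rw [h2, show (a : ℤ) - b = 0 by omega, Int.cast_zero]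
  have hθu : (θa : G → ℂ) u = 1 := by
    have hs : ∑ j ∈ Finset.Ico 1 p, (θa : G → ℂ) (x ^ j) = (S.D.e : ℂ) := by
      rw [S.D.Y_sumP θa haY, S.hW]; simp
    obtain ⟨a, b, h1, h2⟩ := hfix θa 1 _ (by
      rw [S.hdY θa haY, hg0, hpC]; push_cast; ring) hs
    obtain ⟨β, hβ⟩ := involution_mod_four S.hperf θa huu (S.Y_deg_val haY)
    rw [h2, hg0] at hβ
    have hβ' : (a : ℤ) - b = ((S.D.e + 1 : ℕ) : ℤ) - 4 * β := by
      rw [← Int.cast_inj (α := ℂ), hβ]; push_cast; ring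
    obtain ⟨a4, ha4⟩ := he4
    rw [h2, show (a : ℤ) - b = 1 by omega, Int.cast_one]
  obtain ⟨πu, hπu, hπu'⟩ : ∃ v : ℤ, (φ₀ : G → ℂ) u = (v : ℂ) ∧ (v = 1 ∨ v = -1) := by
    have hv : ∑ j ∈ Finset.Ico 1 p, (φ₀ : G → ℂ) (x ^ j) = 0 := by
      rw [Finset.mem_compl, Finset.mem_union] at hΦO
      push Not at hΦO
      exact Finset.sum_eq_zero fun j hj =>
        S.vanish hΦO.1 hΦO.2 (Subgroup.pow_mem _ (Subgroup.mem_zpowers x) _) (S.pow_ne hj)
    obtain ⟨a, b, h1, h2⟩ := hfix φ₀ 1 _ (by rw [hΦd]; simp) hv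
    exact ⟨_, h2, by omega⟩
  choose! su hsu hsu' using hPu
  have hPsum : (∑ χ ∈ Pn, su χ) = -2 := by
    have h := S.rel haY (hreg u huu)
    rw [← hone, ← hXp, ← Finset.sum_filter_add_sum_filter_not Xp (fun χ => S.D.ε χ = 1), ← hPn,
      ← hNn, Finset.sum_eq_zero (s := Nn) (fun χ hχ => by rw [hNu χ hχ, mul_zero]), add_zero,
      Finset.sum_congr rfl (g := fun χ => (su χ : ℂ)) fun χ hχ => by
        rw [(Finset.mem_filter.1 hχ).2, hsu χ hχ]; simp, hθu] at h
    have h' : (1 : ℤ) + (∑ χ ∈ Pn, su χ) + 1 = 0 := by exact_mod_cast h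
    omega
  have hπ1 : πu = 1 := by
    have h := hFaw u huu
    rw [hθu, hπu, Finset.sum_congr rfl (g := fun χ => (su χ : ℂ)) hsu] at h
    have h' : (1 : ℤ) * 1 = 1 + (∑ χ ∈ Pn, su χ) + 1 + πu := by exact_mod_cast h
    omega
  obtain ⟨hcone, hcθ, hcΦ, hcP⟩ : c one = 1 ∧ c θ' = 1 ∧ c φ₀ = 1 ∧
      ∀ χ ∈ Pn, su χ = 2 * c χ := by
    have h := hΨw u huu
    rw [hθu, hπu, hπ1, Finset.sum_congr rfl (g := fun χ => ((c χ * su χ : ℤ) : ℂ)) fun χ hχ => by
      rw [hsu χ hχ]; push_cast; ring] at h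
    have h' : ((p - S.D.e : ℕ) : ℤ) = c one + (∑ χ ∈ Pn, c χ * su χ) + c θ' * 1 + c φ₀ * 1 := by
      exact_mod_cast h
    have hle : ∀ χ ∈ Pn, c χ * su χ ≤ 2 := fun χ hχ => by
      rcases hc1 χ (hmP χ hχ) with h1 | h1 <;> rcases hsu' χ hχ with h2 | h2 | h2 <;>
        rw [h1, h2] <;> norm_num
    have h1 := Finset.sum_le_card_nsmul Pn _ _ hle
    rw [nsmul_eq_mul] at h1
    have hA := hc1 one hma1
    have hB := hc1 θ' hmθ'
    have hC := hc1 φ₀ hΦm
    refine ⟨by omega, by omega, by omega, fun χ hχ => ?_⟩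
    have heq : ∑ χ ∈ Pn, c χ * su χ = ∑ χ ∈ Pn, (2 : ℤ) := by
      rw [Finset.sum_const, nsmul_eq_mul]; omega
    have h2 := (Finset.sum_eq_sum_iff_of_le hle).1 heq χ hχ
    rcases hc1 χ (hmP χ hχ) with h3 | h3 <;> rw [h3] at h2 ⊢ <;> omega
  have hident : ∀ w : G, w * w = 1 → ((p - S.D.e : ℕ) : ℂ) =
      1 + ∑ χ ∈ Pn, (c χ : ℂ) * (χ : G → ℂ) w + (θa : G → ℂ) w + (φ₀ : G → ℂ) w := fun w hw => by
    have h := hΨw w hw
    rw [hcone, hcθ, hcΦ] at h
    simpa using h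
  -- sums over the characters not vanishing at the singular elements
  have hR : ∀ w : G, w * w = 1 →
      ((p - S.D.e : ℕ) : ℂ) *
        ∑ χ : IrrCharacter G, (χ : G → ℂ) u * (χ : G → ℂ) x * conj ((χ : G → ℂ) w) /
          (χ : G → ℂ) 1 =
      ((p - S.D.e : ℕ) : ℂ) + ∑ χ ∈ Pn, (c χ : ℂ) * (χ : G → ℂ) w + (θa : G → ℂ) w := by
    intro w hw
    have hwreal : ∀ χ : IrrCharacter G, conj ((χ : G → ℂ) w) = (χ : G → ℂ) w := fun χ => by
      rw [← Chars.char_inv_eq_conj (Chars.irr_isCharacter χ), inv_eq_of_mul_eq_one_right hw]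
    have hg00 : ((p - S.D.e : ℕ) : ℂ) ≠ 0 := Nat.cast_ne_zero.2 (by omega)
    rw [← Finset.sum_add_sum_compl (S.D.X ∪ S.D.Y), Finset.sum_union S.D.disj,
      Finset.sum_eq_zero (s := (S.D.X ∪ S.D.Y)ᶜ) (fun χ hχ => by
        rw [Finset.mem_compl, Finset.mem_union] at hχ
        push Not at hχ
        rw [S.vanish hχ.1 hχ.2 (Subgroup.mem_zpowers x) S.x_ne, mul_zero, zero_mul, zero_div]),
      add_zero, ← Finset.add_sum_erase _ _ S.D.one_mem, ← hone, ← hXp,
      ← Finset.sum_filter_add_sum_filter_not Xp (fun χ => S.D.ε χ = 1), ← hPn, ← hNn,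
      Finset.sum_eq_zero (s := Nn) (fun χ hχ => by
        rw [hNu χ hχ, zero_mul, zero_mul, zero_div]), add_zero,
      Finset.sum_congr rfl (g := fun χ : IrrCharacter G =>
          ((p - S.D.e : ℕ) : ℂ)⁻¹ * ((c χ : ℂ) * (χ : G → ℂ) w)) fun χ hχ => by
        rw [hsu χ hχ, hcP χ hχ, S.X_val (Finset.mem_of_mem_erase (Finset.mem_filter.1 hχ).1)
          (Subgroup.mem_zpowers x) S.x_ne, (Finset.mem_filter.1 hχ).2, hwreal,
          apply_one_eq_deg, hdP χ hχ, hg0]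
        push_cast
        field_simp,
      Finset.sum_congr rfl (s₁ := S.D.Y) (g := fun θ : IrrCharacter G =>
          ((p - S.D.e : ℕ) : ℂ)⁻¹ * (θa : G → ℂ) w * (θ : G → ℂ) x) fun θ hθ => by
        rw [hwreal, S.D.Y_reg θ hθ θa haY u (hreg u huu), S.D.Y_reg θ hθ θa haY w (hreg w hw),
          hθu, S.Y_deg_val hθ, one_mul, div_eq_inv_mul]
        ring,
      ← Finset.mul_sum, ← Finset.mul_sum, S.Y_val_sum (Subgroup.mem_zpowers x) S.x_ne]
    simp only [hone, Blocks.coe_oneChar, map_one, mul_one, div_one]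
    field_simp
  -- the inverting elements are conjugate to `u`
  have hinvconj : ∀ j : ℕ, IsConj u (u * x ^ j) := fun j => by
    obtain ⟨l, hl⟩ := S.p_odd
    set y := x ^ (j * (l + 1)) with hy
    have hyy : y * y = x ^ j := by
      rw [hy, ← pow_add, ← pow_mod_orderOf, S.hx, show j * (l + 1) + j * (l + 1) = j + p * j by
        rw [hl]; ring, Nat.add_mul_mod_self_left, ← S.hx, pow_mod_orderOf]
    have huy : u * y * u = y⁻¹ := by
      rw [hy, ← inv_pow, ← hux]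
      conv_rhs => rw [show u * x * u = u * x * u⁻¹ by rw [inv_eq_of_mul_eq_one_right huu], conj_pow,
        inv_eq_of_mul_eq_one_right huu]
    refine isConj_iff.2 ⟨y⁻¹, ?_⟩
    rw [inv_inv, ← hyy, ← huy]
    simp only [mul_assoc]
    rw [← mul_assoc u u, huu, one_mul]
  -- one class of involutions
  have hone_class : ∀ z : G, z * z = 1 → z ≠ 1 → IsConj u z := by
    intro z hz hz1
    by_contra hne
    have hempty : ∀ a ∈ (Finset.univ : Finset G), ¬(IsConj u a ∧ IsConj z (a * x)) := by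
      refine fun a _ h => hne ?_
      obtain ⟨⟨d, rfl⟩, ⟨d', hd'⟩⟩ := And.intro (isConj_iff.1 h.1) (isConj_iff.1 h.2)
      have haa : (d * u * d⁻¹) * (d * u * d⁻¹) = 1 := by
        rw [show d * u * d⁻¹ * (d * u * d⁻¹) = d * (u * u) * d⁻¹ by group, huu, mul_one,
          mul_inv_cancel]
      have hcc : (d * u * d⁻¹ * x) * (d * u * d⁻¹ * x) = 1 := by
        rw [← hd', show d' * z * d'⁻¹ * (d' * z * d'⁻¹) = d' * (z * z) * d'⁻¹ by group, hz, mul_one,
          mul_inv_cancel]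
      have hax : (d * u * d⁻¹) * x * (d * u * d⁻¹) = x⁻¹ :=
        eq_inv_of_mul_eq_one_left (by rw [← hcc]; simp only [mul_assoc])
      have hm := S.inverter_form huu hux haa hax
      rw [mem_zpowers_iff_mem_range_orderOf] at hm
      obtain ⟨j, -, hj⟩ := Finset.mem_image.1 hm
      have e : d * u * d⁻¹ * x = u * x ^ (j + 1) := by
        rw [pow_succ, hj]
        simp only [← mul_assoc]
        rw [huu, one_mul]
      exact ((isConj_iff.2 ⟨d', hd'⟩).trans (e ▸ (hinvconj (j + 1)).symm)).symm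
    have h : (Nat.card (Subgroup.centralizer ({z} : Set G)) : ℂ) *
        ((Finset.univ.filter fun a => IsConj u a ∧ IsConj z (a * x)).card : ℂ) =
        ((Subgroup.centralizer ({u} : Set G)).index : ℂ) * ∑ χ : IrrCharacter G,
          (χ : G → ℂ) u * (χ : G → ℂ) x * conj ((χ : G → ℂ) z) / (χ : G → ℂ) 1 := by
      convert translate_count u z x
    rw [Finset.card_eq_zero.2 (Finset.filter_eq_empty_iff.2 hempty), Nat.cast_zero, mul_zero] at h
    have h0 := (mul_eq_zero.1 h.symm).resolve_left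
      (Nat.cast_ne_zero.2 Subgroup.index_ne_zero_of_finite)
    have h1 := hR z hz
    rw [h0, mul_zero] at h1
    have h2 := hident z hz
    have h3 : (φ₀ : G → ℂ) z = (φ₀ : G → ℂ) 1 := by
      rw [apply_one_eq_deg, hΦd, hpC]
      rw [hg0] at h1 h2
      push_cast at h1 h2
      linear_combination (-h2) + h1
    refine hz1 (faithful_of_simple S.hsimple φ₀ (fun h => ?_) h3)
    rw [h, hone_deg] at hΦd
    omega
  -- the centralizer of an involution
  have hset : (Finset.univ.filter fun a => IsConj u a ∧ IsConj u (a * x)) =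
      (Finset.range p).image fun j => u * x ^ j := by
    ext a
    simp only [Finset.mem_filter, Finset.mem_univ, true_and, Finset.mem_image, Finset.mem_range]
    constructor
    · rintro ⟨h1, h2⟩
      have hsq : ∀ w, IsConj u w → w * w = 1 := fun w hw => by
        obtain ⟨d, rfl⟩ := isConj_iff.1 hw
        rw [show d * u * d⁻¹ * (d * u * d⁻¹) = d * (u * u) * d⁻¹ by group, huu, mul_one,
          mul_inv_cancel]
      have hax : a * x * a = x⁻¹ :=
        eq_inv_of_mul_eq_one_left (by rw [← hsq _ h2]; simp only [mul_assoc])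
      have hm := S.inverter_form huu hux (hsq _ h1) hax
      rw [mem_zpowers_iff_mem_range_orderOf, S.hx] at hm
      obtain ⟨j, hj, hje⟩ := Finset.mem_image.1 hm
      exact ⟨j, Finset.mem_range.1 hj, by rw [hje, ← mul_assoc, huu, one_mul]⟩
    · rintro ⟨j, -, rfl⟩
      refine ⟨hinvconj j, ?_⟩
      rw [mul_assoc, ← pow_succ]
      exact hinvconj (j + 1)
  have hA : (Finset.univ.filter fun a => IsConj u a ∧ IsConj u (a * x)).card = p := by
    rw [hset, Finset.card_image_of_injOn, Finset.card_range]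
    intro i hi j hj h
    simp only [Finset.coe_range, Set.mem_Iio] at hi hj
    have h1 := mul_left_cancel h
    rw [pow_eq_pow_iff_modEq, S.hx] at h1
    exact h1.eq_of_lt_of_lt hi hj
  have hkey : (Nat.card (Subgroup.centralizer ({u} : Set G)) : ℂ) *
      ((Finset.univ.filter fun a => IsConj u a ∧ IsConj u (a * x)).card : ℂ) =
      ((Subgroup.centralizer ({u} : Set G)).index : ℂ) * ∑ χ : IrrCharacter G,
        (χ : G → ℂ) u * (χ : G → ℂ) x * conj ((χ : G → ℂ) u) / (χ : G → ℂ) 1 := by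
    convert translate_count u u x
  rw [hA] at hkey
  have hRu : ((p - S.D.e : ℕ) : ℂ) *
      ∑ χ : IrrCharacter G, (χ : G → ℂ) u * (χ : G → ℂ) x * conj ((χ : G → ℂ) u) /
        (χ : G → ℂ) 1 = 2 * (S.D.e : ℂ) := by
    rw [hR u huu, hθu, Finset.sum_congr rfl (g := fun _ => (2 : ℂ)) fun χ hχ => by
      rw [hsu χ hχ, hcP χ hχ]
      rcases hc1 χ (hmP χ hχ) with h | h <;> rw [h] <;> norm_num, Finset.sum_const, nsmul_eq_mul,
      hg0]
    have hP2 : 2 * (Pn.card : ℂ) + 2 = (S.D.e : ℂ) := by exact_mod_cast hPcard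
    push_cast
    linear_combination hP2
  have hcu := (Subgroup.centralizer ({u} : Set G)).card_mul_index
  set cu := Nat.card (Subgroup.centralizer ({u} : Set G)) with hcudef
  set iu := (Subgroup.centralizer ({u} : Set G)).index with hiu
  have hN : cu * p * (p - S.D.e) = iu * (2 * S.D.e) := by
    have h : ((cu : ℂ) * p) * ((p - S.D.e : ℕ) : ℂ) = (iu : ℂ) * (2 * (S.D.e : ℂ)) := by
      rw [hkey, mul_assoc, mul_comm (∑ χ : IrrCharacter G, _), hRu]
    exact_mod_cast h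
  have hcsq : cu * cu = 2 ^ S.b * (2 * S.D.e) := by
    have h : cu * (cu * p * (p - S.D.e)) = cu * iu * (2 * S.D.e) := by rw [hN, mul_assoc]
    rw [hcu, S.hcard] at h
    refine Nat.eq_of_mul_eq_mul_left (show 0 < p * (p - S.D.e) from
      Nat.mul_pos hp.out.pos (by omega)) ?_
    linarith
  obtain ⟨z, hz, hz1, hodd⟩ := S.exists_involution_odd_class
  have hdvd : 2 ^ S.b ∣ cu := by
    have hidx : (Subgroup.centralizer ({z} : Set G)).index = iu := by
      rw [hiu, ← Chars.card_filter_isConj, ← Chars.card_filter_isConj]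
      congr 1
      ext a
      have hzu := hone_class z hz hz1
      simp only [Finset.mem_filter, Finset.mem_univ, true_and]
      exact ⟨fun h => hzu.trans h, fun h => hzu.symm.trans h⟩
    rw [hidx] at hodd
    refine ((Nat.prime_two.coprime_iff_not_dvd.2 hodd).pow_left S.b).dvd_of_dvd_mul_right ?_
    rw [hcu, S.hcard]
    exact ⟨p * (p - S.D.e), by ring⟩
  have hle : 2 ^ S.b ≤ 2 * S.D.e := by
    have h1 := Nat.le_of_dvd (show 0 < cu from Nat.card_pos) hdvd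
    have h2 : 2 ^ S.b * 2 ^ S.b ≤ 2 ^ S.b * (2 * S.D.e) := by
      rw [← hcsq]; exact Nat.mul_le_mul h1 h1
    exact Nat.le_of_mul_le_mul_left h2 (Nat.two_pow_pos _)
  rw [S.hcard, hg0, pow_three, mul_assoc]
  refine Nat.mul_lt_mul_of_pos_left ?_ hp.out.pos
  calc 2 ^ S.b * (S.D.e + 1) ≤ 2 * S.D.e * (S.D.e + 1) := Nat.mul_le_mul_right _ hle
    _ < p * p := by nlinarith [hpe]

end Shape

end Cfsg.Agent.Blocks.TwoPrimeOrder
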