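import Cfsg.Agent.Blocks.TwoPrimeOrder.Half
import Cfsg.Agent.Blocks.HalfDegree.Reduce
import Cfsg.Agent.Screen.BrauerP.Reduce
import Cfsg.Agent.Screen.BrauerP.Core
import Cfsg.Agent.S4503
import Cfsg.Agent.S4701
import Cfsg.Agent.Linear.SL2Facts

/-!
Simple groups of order `p * q ^ b * g₀` with `g₀ < p - 1`.
-/

set_option autoImplicit false
set_option linter.style.haveILetI false
set_option linter.unusedSectionVars false

namespace Cfsg.Agent.Blocks.TwoPrimeOrder

open Cfsg Cfsg.Agent Screen.BrauerP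
open scoped commutatorElement

universe u

/-- The arithmetic of the order of `PSL(2, p)`. -/
theorem psl_arith {p q b g₀ a : ℕ} (hq : q.Prime) (hpa : p = 2 * a + 1) (ha : 0 < a)
    (h : q ^ b * g₀ = 2 * a * (a + 1)) (hg : g₀ < 2 * a) :
    ∃ m : ℕ, p = 2 ^ m + 1 ∨ p = 2 ^ m - 1 := by
  rcases eq_or_ne q 2 with h2 | h2
  · subst h2
    have key : ∀ k s r : ℕ, ¬ 2 ∣ s → ¬ 2 ∣ r → 2 ^ b * g₀ = 2 ^ (k + 1) * (s * r) → 0 < g₀ →
        s * r ≤ g₀ := fun k s r hs hr he hg0 => by
      have hodd : ¬ 2 ∣ s * r := fun hd => (Nat.prime_two.dvd_mul.1 hd).elim hs hr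
      refine Nat.le_of_dvd hg0 ?_
      exact ((Nat.prime_two.coprime_iff_not_dvd.2 hodd).symm.pow_right b).dvd_of_dvd_mul_left
        (he ▸ dvd_mul_left (s * r) _)
    have hg0 : 0 < g₀ := by
      rcases Nat.eq_zero_or_pos g₀ with h0 | h0
      · rw [h0, mul_zero] at h
        have : 0 < 2 * a * (a + 1) := Nat.mul_pos (by omega) (by omega)
        omega
      · exact h0
    by_cases hev : 2 ∣ a
    · obtain ⟨k, s, hs, hks⟩ := Nat.exists_eq_pow_mul_and_not_dvd ha.ne' 2 (by norm_num)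
      have h1 := key k s (a + 1) hs (by omega) (by
        rw [h, pow_succ]
        linear_combination 2 * (a + 1) * hks) hg0
      have hs1 : s = 1 := by
        by_contra hne
        have hs0 : s ≠ 0 := fun h0 => hs (h0 ▸ dvd_zero 2)
        have : 2 * (a + 1) ≤ s * (a + 1) := Nat.mul_le_mul_right _ (by omega)
        omega
      subst hs1
      exact ⟨k + 1, Or.inl (by rw [pow_succ]; omega)⟩
    · obtain ⟨k, s, hs, hks⟩ := Nat.exists_eq_pow_mul_and_not_dvd (show a + 1 ≠ 0 by omega) 2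
        (by norm_num)
      have h1 := key k s a hs hev (by rw [h, pow_succ, hks]; ring) hg0
      have hs1 : s = 1 := by
        by_contra hne
        have hs0 : s ≠ 0 := fun h0 => hs (h0 ▸ dvd_zero 2)
        have : 2 * a ≤ s * a := Nat.mul_le_mul_right _ (by omega)
        omega
      subst hs1
      exact ⟨k + 1, Or.inr (by rw [pow_succ]; omega)⟩
  · exfalso
    have hcop : Nat.Coprime (q ^ b) 2 :=
      ((Nat.coprime_primes hq Nat.prime_two).2 h2).pow_left b
    have hd : q ^ b ∣ a * (a + 1) := hcop.dvd_of_dvd_mul_left ⟨g₀, by rw [h]; ring⟩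
    have hle : q ^ b ≤ a + 1 := by
      by_cases hqa : q ∣ a
      · have hn : ¬ q ∣ a + 1 := fun hd' => hq.ne_one (Nat.dvd_one.1 ((Nat.dvd_add_right hqa).1 hd'))
        exact (Nat.le_of_dvd ha (((hq.coprime_iff_not_dvd.2 hn).pow_left b).dvd_of_dvd_mul_right hd)).trans
          (Nat.le_succ a)
      · exact Nat.le_of_dvd (by omega)
          (((hq.coprime_iff_not_dvd.2 hqa).pow_left b).dvd_of_dvd_mul_left hd)
    have h3 : q ^ b * g₀ < (a + 1) * (2 * a) :=
      lt_of_le_of_lt (Nat.mul_le_mul_right g₀ hle) (Nat.mul_lt_mul_of_pos_left hg (by omega))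
    rw [h, mul_comm (a + 1)] at h3
    exact lt_irrefl _ h3

theorem main {G : Type u} [Group G] [Finite G] [IsSimpleGroup G] (hG : ¬ IsCyclic G)
    (p q b g₀ : ℕ) (hp : p.Prime) (hq : q.Prime) (hpq : p ≠ q)
    (hG' : Nat.card G = p * q ^ b * g₀) (hg : g₀ < p - 1) :
    (∃ (m : ℕ) (F : Type) (_ : Field F) (_ : Fintype F), Fintype.card F = p ∧
      (p = 2 ^ m + 1 ∨ p = 2 ^ m - 1) ∧
      Nonempty (G ≃* Matrix.ProjectiveSpecialLinearGroup (Fin 2) F)) ∨
    (∃ (m : ℕ) (F : Type) (_ : Field F) (_ : Fintype F), Fintype.card F = 2 ^ m ∧ p = 2 ^ m + 1 ∧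
      3 < p ∧ Nonempty (G ≃* Matrix.ProjectiveSpecialLinearGroup (Fin 2) F)) := by
  classical
  haveI := Fintype.ofFinite G
  haveI := Fact.mk hp
  have hp2 := hp.two_le
  have hpos := Nat.card_pos (α := G)
  have hg0 : 0 < g₀ := by
    rcases Nat.eq_zero_or_pos g₀ with h | h
    · rw [h, mul_zero] at hG'; omega
    · exact h
  have hpodd : p ≠ 2 := by omega
  have hpM : ¬ p ∣ q ^ b * g₀ := fun h => by
    rcases hp.dvd_mul.1 h with h1 | h1
    · exact hpq ((Nat.prime_dvd_prime_iff_eq hp hq).1 (hp.dvd_of_dvd_pow h1))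
    · have := Nat.le_of_dvd hg0 h1; omega
  have hdiv : p ∣ Nat.card G := ⟨q ^ b * g₀, by rw [hG', mul_assoc]⟩
  have hsq : ¬ p ^ 2 ∣ Nat.card G := fun h => hpM (by
    rw [hG', mul_assoc, sq] at h
    exact Nat.dvd_of_mul_dvd_mul_left hp.pos h)
  have hsimple : ∀ K : Subgroup G, K.Normal → K = ⊥ ∨ K = ⊤ :=
    fun K hK => hK.eq_bot_or_eq_top
  have hncomm : ¬ ∀ a c : G, a * c = c * a := fun h => by
    letI : CommGroup G := { (inferInstance : Group G) with mul_comm := h }
    exact hG IsSimpleGroup.isCyclic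
  have hperf : commutator G = ⊤ := by
    refine (hsimple (commutator G) inferInstance).resolve_left fun h => hncomm fun a c => ?_
    have h1 : ⁅a, c⁆ ∈ commutator G :=
      Subgroup.commutator_mem_commutator (Subgroup.mem_top a) (Subgroup.mem_top c)
    rw [h, Subgroup.mem_bot, commutatorElement_eq_one_iff_mul_comm] at h1
    exact h1
  have hcenter : Subgroup.center G = ⊥ := by
    refine (hsimple _ inferInstance).resolve_right fun h => hncomm fun a c => ?_
    exact Subgroup.mem_center_iff.1 (h ▸ Subgroup.mem_top c) a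
  obtain ⟨P⟩ : Nonempty (Sylow p G) := inferInstance
  have hPc : Nat.card P = p := by
    obtain ⟨k, hk⟩ := P.2.exists_card_eq
    have hd := P.dvd_card_of_dvd_card hdiv
    have hk1 : k = 1 := by
      rcases k with _ | _ | k
      · rw [hk, pow_zero] at hd; exact absurd (Nat.le_of_dvd one_pos hd) (by omega)
      · rfl
      · exact absurd (((pow_dvd_pow p (show 2 ≤ k + 1 + 1 by omega)).trans (dvd_of_eq hk.symm)).trans
          (P : Subgroup G).card_subgroup_dvd_card) hsq
    show Nat.card (P : Subgroup G) = p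
    rw [hk, hk1, pow_one]
  obtain ⟨x, hx, hPx, ⟨D⟩⟩ := exists_pdata hpodd P hPc
  have hxne : x ≠ 1 := fun h => hp.ne_one (by rw [← hx, h, orderOf_one])
  have he2 : 2 ≤ D.e := by
    have h := two_le_relIndex_of_perfect hperf P hPc
    rwa [hPx, Subgroup.zpowers_eq_closure, Subgroup.centralizer_closure,
      ← Subgroup.zpowers_eq_closure, D.relIndex] at h
  have het := D.mul_et
  have hdvd : ∀ χ : IrrCharacter G, ¬ p ∣ charDegree (χ : G → ℂ) →
      charDegree (χ : G → ℂ) ∣ q ^ b * g₀ := fun χ hχ => by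
    obtain ⟨d, -, hd, hdd⟩ := Chars.irr_degree_dvd_card χ.2
    rw [apply_one_eq_deg] at hd
    rw [← show charDegree (χ : G → ℂ) = d by exact_mod_cast hd, hG', mul_assoc] at hdd
    exact ((hp.coprime_iff_not_dvd.2 hχ).symm).dvd_of_dvd_mul_left hdd
  have hcop : ∀ d : ℕ, ¬ q ∣ d → d ∣ q ^ b * g₀ → d ∣ g₀ := fun d hd h =>
    ((hq.coprime_iff_not_dvd.2 hd).symm.pow_right b).dvd_of_dvd_mul_left h
  have hqX : ∀ χ ∈ D.X.erase (Blocks.oneChar G), q ∣ charDegree (χ : G → ℂ) := by
    intro χ hχ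
    obtain ⟨hne, hχX⟩ := Finset.mem_erase.1 hχ
    have h2 := two_le_deg hperf χ hne
    obtain ⟨k, hk⟩ := Int.modEq_iff_dvd.1 (D.X_deg χ hχX)
    have hk0 : k ≠ 0 := fun h => by
      rw [h, mul_zero] at hk
      rcases D.sign χ hχX with h1 | h1 <;> omega
    have hp0 : (0 : ℤ) ≤ p := Int.natCast_nonneg p
    have hkneg : k ≤ -1 := by
      by_contra hc
      have h3 : (p : ℤ) ≤ (p : ℤ) * k := le_mul_of_one_le_right hp0 (by omega)
      rcases D.sign χ hχX with h1 | h1 <;> omega
    have hkp : (p : ℤ) * k ≤ (p : ℤ) * (-1) := mul_le_mul_of_nonneg_left hkneg hp0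
    have hgt : g₀ < charDegree (χ : G → ℂ) := by
      rcases D.sign χ hχX with h1 | h1 <;> omega
    have hpd : ¬ p ∣ charDegree (χ : G → ℂ) := fun h => by
      have h3 : (p : ℤ) ∣ (D.ε χ) := by
        rw [show D.ε χ = (charDegree (χ : G → ℂ) : ℤ) + p * k by linarith]
        exact dvd_add (Int.natCast_dvd_natCast.2 h) (dvd_mul_right _ _)
      rcases D.sign χ hχX with h1 | h1 <;> rw [h1] at h3
      · have := Int.le_of_dvd one_pos h3; omega
      · rw [dvd_neg] at h3; have := Int.le_of_dvd one_pos h3; omega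
    by_contra hqd
    have := Nat.le_of_dvd hg0 (hcop _ hqd (hdvd χ hpd))
    omega
  obtain ⟨θ, hθ⟩ := D.exists_Y
  set dθ := charDegree (θ : G → ℂ) with hdθ
  have hθ1 : θ ≠ Blocks.oneChar G := fun h => D.one_notMem (h ▸ hθ)
  have hdθ2 : 2 ≤ dθ := two_le_deg hperf θ hθ1
  have hqS : (q : ℤ) ∣ ∑ χ ∈ D.X.erase (Blocks.oneChar G),
      D.ε χ * (charDegree (χ : G → ℂ) : ℤ) := Finset.dvd_sum fun χ hχ =>
    dvd_mul_of_dvd_right (Int.natCast_dvd_natCast.2 (hqX χ hχ)) _
  have hrel : (1 : ℤ) + (∑ χ ∈ D.X.erase (Blocks.oneChar G),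
      D.ε χ * (charDegree (χ : G → ℂ) : ℤ)) + D.W * (dθ : ℤ) = 0 := by
    have h := D.relation 1 (by rw [orderOf_one]; exact hp.not_dvd_one) θ hθ
    rw [← Finset.add_sum_erase _ _ D.one_mem, D.one_sign, Blocks.coe_oneChar] at h
    simp only [apply_one_eq_deg, Int.cast_one, mul_one] at h
    exact_mod_cast h
  have hqθ : ¬ q ∣ dθ := fun h => by
    have h1 : (q : ℤ) ∣ 1 := by
      have h2 : (1 : ℤ) = -(∑ χ ∈ D.X.erase (Blocks.oneChar G),
          D.ε χ * (charDegree (χ : G → ℂ) : ℤ)) - D.W * (dθ : ℤ) := by linarith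
      rw [h2]
      exact dvd_sub hqS.neg_right (dvd_mul_of_dvd_right (Int.natCast_dvd_natCast.2 h) _)
    have := Int.le_of_dvd one_pos h1
    have := hq.two_le
    omega
  have heW : D.e < p := by
    have h1 : D.e * 1 ≤ D.e * D.t := Nat.mul_le_mul_left _ D.t_pos
    omega
  have hYd := Int.modEq_iff_dvd.1 (D.Y_deg θ hθ)
  have hpθ : ¬ p ∣ dθ := fun h => by
    have h1 : (p : ℤ) ∣ (D.e : ℤ) * D.W := by
      have h2 := dvd_add hYd (Int.natCast_dvd_natCast.2 h)
      rw [← hdθ, sub_add_cancel, dvd_neg] at h2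
      exact h2
    rcases D.sign_W with hW | hW <;> rw [hW] at h1
    · rw [mul_one, Int.natCast_dvd_natCast] at h1
      have := Nat.le_of_dvd D.e_pos h1; omega
    · rw [mul_neg, mul_one, dvd_neg, Int.natCast_dvd_natCast] at h1
      have := Nat.le_of_dvd D.e_pos h1; omega
  have hθg : dθ ∣ g₀ := hcop _ hqθ (hdvd θ hpθ)
  have hθle := Nat.le_of_dvd hg0 hθg
  have hθfaith : ∀ g : G, (θ : G → ℂ) g = (θ : G → ℂ) 1 → g = 1 :=
    fun g h => faithful_of_simple hsimple θ hθ1 h
  have ht : 2 ≤ D.t := by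
    by_contra h
    have ht1 : D.t = 1 := by have := D.t_pos; omega
    rw [ht1, mul_one] at het
    rw [D.t_one ht1, het, mul_one, ← hdθ] at hYd
    have h1 : (p : ℤ) ∣ (dθ : ℤ) - 1 := by
      have h2 := dvd_add hYd (dvd_refl (p : ℤ))
      rw [Nat.cast_sub (by omega : 1 ≤ p), Nat.cast_one] at h2
      rw [show (dθ : ℤ) - 1 = -(-((p : ℤ) - 1) - (dθ : ℤ) + p) by ring]
      exact h2.neg_right
    have := Int.le_of_dvd (by omega) h1
    omega
  have h2e : 2 * D.e ≤ p - 1 := by
    rw [← het, mul_comm 2]; exact Nat.mul_le_mul_left _ ht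
  have hp5 : 5 ≤ p := by omega
  rcases D.sign_W with hW | hW
  · -- the exceptional sign is positive
    rw [hW, mul_one, ← hdθ] at hYd
    have hdeq : dθ = p - D.e := by
      obtain ⟨k, hk⟩ := hYd
      have hp0 : (0 : ℤ) ≤ p := Int.natCast_nonneg p
      have h1 : k ≤ -1 := by
        by_contra hc
        have := mul_nonneg hp0 (show (0 : ℤ) ≤ k by omega)
        omega
      have h2 : -1 ≤ k := by
        by_contra hc
        have := mul_le_mul_of_nonneg_left (show k ≤ -2 by omega) hp0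
        omega
      have h3 : k = -1 := by omega
      subst h3
      omega
    have hg0eq : g₀ = p - D.e := by
      obtain ⟨c, hc⟩ := hθg
      have : c = 1 := by
        by_contra hne
        rcases Nat.eq_zero_or_pos c with h0 | h0
        · rw [h0, mul_zero] at hc; omega
        · have : dθ * 2 ≤ dθ * c := Nat.mul_le_mul_left dθ (by omega)
          omega
      rw [this, mul_one] at hc
      omega
    have hdY : ∀ θ' ∈ D.Y, charDegree (θ' : G → ℂ) = p - D.e := fun θ' h' => by
      rw [D.deg_Y_eq h' hθ, ← hdθ, hdeq]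
    have hC : Subgroup.centralizer ({x} : Set G) = Subgroup.zpowers x := by
      refine centralizer_eq P hPx (fun K hK hKp => (hsimple K hK).resolve_right fun h => hKp ?_) hx
        (χ := θ) (by rw [← hdθ]; omega) (D.Y_value θ hθ) ⟨x, Subgroup.mem_zpowers x, fun h =>
          hxne (hθfaith x h)⟩
      rw [h, Subgroup.card_top]; exact hdiv
    have hedvd : D.e ∣ q ^ b * g₀ := by
      have h1 : D.e ∣ Nat.card G := by
        rw [← D.relIndex]
        exact (Subgroup.index_dvd_card _).trans (Subgroup.card_subgroup_dvd_card _)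
      rw [hG', mul_assoc] at h1
      exact ((hp.coprime_iff_not_dvd.2 fun h => by
        have := Nat.le_of_dvd D.e_pos h; omega).symm).dvd_of_dvd_mul_left h1
    have hecop : Nat.Coprime D.e g₀ := by
      rw [hg0eq, Nat.coprime_sub_self_right (by omega)]
      exact (hp.coprime_iff_not_dvd.2 fun h => by
        have := Nat.le_of_dvd D.e_pos h; omega).symm
    obtain ⟨i, -, hei⟩ := (Nat.dvd_prime_pow hq).1 (hecop.dvd_of_dvd_mul_right hedvd)
    have hi : 1 ≤ i := by
      rcases Nat.eq_zero_or_pos i with h | h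
      · rw [h, pow_zero] at hei; omega
      · exact h
    have hq2 : q = 2 := by
      have hqe : (q : ℤ) ∣ (D.e : ℤ) := by
        rw [hei]; exact_mod_cast dvd_pow_self q (by omega : i ≠ 0)
      have hqp : (q : ℤ) ∣ ((p - 1 : ℕ) : ℤ) := by rw [← het]; push_cast; exact hqe.mul_right _
      rw [hW, one_mul, hdeq] at hrel
      have h3 : (q : ℤ) ∣ 2 := by
        have h4 : (2 : ℤ) = -(∑ χ ∈ D.X.erase (Blocks.oneChar G),
            D.ε χ * (charDegree (χ : G → ℂ) : ℤ)) + (D.e : ℤ) - ((p - 1 : ℕ) : ℤ) := by omega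
        rw [h4]
        exact dvd_sub (dvd_add hqS.neg_right hqe) hqp
      exact (Nat.prime_dvd_prime_iff_eq hq Nat.prime_two).1 (by exact_mod_cast h3)
    subst hq2
    have S : Shape p x :=
      { D := D, b := b, i := i, hx := hx, sylow := ⟨P, hPx⟩, hperf := hperf, hsimple := hsimple,
        hp5 := hp5, he := hei, hi := hi, ht := ht, hW := hW, hC := hC,
        hcard := by rw [hG', hg0eq], hdY := hdY }
    have hres : (∃ j : ℕ, p = 2 ^ j + 1) ∧ Nat.card G < p ^ 3 := by
      by_cases he : S.D.e = 2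
      · exact S.two_case he
      have hi2 : 2 ≤ S.i := by
        by_contra hlt
        have h1 : S.i = 1 := by have := S.hi; omega
        exact he (by rw [S.he, h1, pow_one])
      by_cases ht3 : 3 ≤ S.D.t
      · exact (S.four_false ht3 hi2).elim
      · obtain ⟨h1, h2⟩ := S.half_case (by have := S.ht; omega) hi2
        exact ⟨⟨_, h1⟩, h2⟩
    obtain ⟨⟨j, hj⟩, hbig⟩ := hres
    have hnorm : ∀ N : Subgroup G, N.Normal → Nat.card N ≠ 2 := fun N hN h => by
      rcases hsimple N hN with h' | h' <;> subst h'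
      · rw [Subgroup.card_bot] at h; omega
      · rw [Subgroup.card_top] at h
        have := Nat.le_of_dvd (by omega) (h ▸ hdiv)
        omega
    rcases S4701.result hperf p hdiv hbig P (one_lt_sylow_count hperf P hPc) hnorm with
      ⟨F, iF, iFt, hcF, -, he⟩ | ⟨m, F, iF, iFt, hcF, hpm, h3, ⟨e⟩⟩
    · exact Or.inl ⟨j, F, iF, iFt, hcF, Or.inl hj, he⟩
    · refine Or.inr ⟨m, F, iF, iFt, hcF, hpm, h3, ?_⟩
      have h2F : (2 : F) = 0 := by
        have h := Nat.cast_card_eq_zero F
        rw [hcF, Nat.cast_pow, Nat.cast_ofNat] at h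
        exact eq_zero_of_pow_eq_zero h
      exact ⟨e.trans ((QuotientGroup.quotientMulEquivOfEq
        (Linear.center_SL2_eq_bot h2F)).trans QuotientGroup.quotientBot).symm⟩
  · -- the exceptional sign is negative
    rw [hW, mul_neg, mul_one, neg_neg, ← hdθ] at hYd
    have hdeq : dθ = D.e := by
      by_contra hne
      rcases Nat.lt_or_gt_of_ne hne with h | h
      · have := Int.le_of_dvd (by omega) hYd; omega
      · have := Int.le_of_dvd (by omega) hYd.neg_right; omega
    have hnn : ∀ H : Subgroup G, H.Normal → Nat.card H ≠ p := fun H hH h => by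
      rcases hsimple H hH with h' | h' <;> subst h'
      · rw [Subgroup.card_bot] at h; omega
      · rw [Subgroup.card_top] at h
        exact one_lt_sylow_count hperf P hPc (by
          have : (P : Subgroup G) = ⊤ := Subgroup.eq_top_of_card_eq _ (by rw [h]; exact hPc)
          rw [this]; infer_instance)
    have h4503 := S4503.result p hp hdiv hsq hnn _ (Chars.irr_isCharacter θ) hθfaith
    rw [← hdθ, hdeq] at h4503
    obtain ⟨e'⟩ := HalfDegree.reduce p hp hdiv hsq hnn _ (Chars.irr_isCharacter θ) hθfaith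
      (by rw [← hdθ, hdeq]; omega)
    have eq : G ≃* Matrix.ProjectiveSpecialLinearGroup (Fin 2) (ZMod p) :=
      ((QuotientGroup.quotientMulEquivOfEq hcenter).trans QuotientGroup.quotientBot).symm.trans e'
    have hc := two_mul_card_psl (p := p) hpodd
    rw [← Nat.card_congr eq.toEquiv, hG'] at hc
    obtain ⟨a, ha⟩ : ∃ a, p = 2 * a + 1 := ⟨D.e, by omega⟩
    have harith : q ^ b * g₀ = 2 * a * (a + 1) := by
      refine Nat.eq_of_mul_eq_mul_left (show 0 < 2 * p by omega) ?_
      have h4 : p ^ 2 - 1 = 4 * (a * (a + 1)) := by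
        rw [ha, show (2 * a + 1) ^ 2 = 4 * (a * (a + 1)) + 1 by ring, Nat.add_sub_cancel]
      rw [h4] at hc
      linarith
    obtain ⟨m, hm⟩ := psl_arith hq ha (by omega) harith (by omega)
    exact Or.inl ⟨m, ZMod p, inferInstance, inferInstance, ZMod.card p, hm, ⟨eq⟩⟩

end Cfsg.Agent.Blocks.TwoPrimeOrder
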