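import Cfsg.Agent.Blocks.TwoPrimeOrder.Basic
import Cfsg.Agent.Blocks.TwicePrime.Moments
import Cfsg.Agent.Chars.GaloisValues

/-!
The inertial index two, and the impossibility of three or more exceptional characters otherwise.
-/

set_option autoImplicit false
set_option linter.style.haveILetI false
set_option linter.unusedSectionVars false

namespace Cfsg.Agent.Blocks.TwoPrimeOrder

open Cfsg Cfsg.Agent Screen.BrauerP
open scoped ComplexConjugate

universe u

variable {G : Type u} [Group G] [Fintype G]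

namespace Shape

variable {p : ℕ} [hp : Fact p.Prime] {x : G} (S : Shape p x)
include S

/-- An involution whose class has odd size. -/
theorem exists_involution_odd_class :
    ∃ z : G, z * z = 1 ∧ z ≠ 1 ∧ ¬ 2 ∣ (Subgroup.centralizer ({z} : Set G)).index := by
  haveI : Fact (Nat.Prime 2) := ⟨Nat.prime_two⟩
  have h2 : 2 ∣ Nat.card G := by
    have h := (Subgroup.normalizer ((Subgroup.zpowers x : Subgroup G) : Set G)).card_subgroup_dvd_card
    rw [S.card_N] at h
    exact (dvd_mul_of_dvd_right S.e_even p).trans h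
  obtain ⟨Q⟩ : Nonempty (Sylow 2 G) := inferInstance
  haveI : Nontrivial (Q : Subgroup G) := by
    rw [← Finite.one_lt_card_iff_nontrivial]
    exact lt_of_lt_of_le one_lt_two (Nat.le_of_dvd Nat.card_pos (Q.dvd_card_of_dvd_card h2))
  haveI := Q.2.center_nontrivial
  have hc : 2 ∣ Nat.card (Subgroup.center (Q : Subgroup G)) := by
    obtain ⟨n, hn⟩ := IsPGroup.iff_card.1 (Q.2.to_subgroup (Subgroup.center (Q : Subgroup G)))
    rcases n with _ | n
    · have := Finite.one_lt_card_iff_nontrivial.2 (inferInstance :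
        Nontrivial (Subgroup.center (Q : Subgroup G)))
      omega
    · rw [hn]; exact dvd_pow_self 2 (by omega)
  obtain ⟨⟨⟨z, hzQ⟩, hzc⟩, hzo⟩ := exists_prime_orderOf_dvd_card' 2 hc
  rw [← Subgroup.orderOf_coe, ← Subgroup.orderOf_coe] at hzo
  change orderOf z = 2 at hzo
  refine ⟨z, by rw [← sq, ← hzo, pow_orderOf_eq_one], fun h => by simp [h] at hzo, fun hd => ?_⟩
  refine Q.not_dvd_index (hd.trans (Subgroup.index_dvd_of_le fun y hy => ?_))
  rw [Subgroup.mem_centralizer_singleton_iff]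
  exact congrArg Subtype.val (Subgroup.mem_center_iff.1 hzc ⟨y, hy⟩)

/-- The inertial index two. -/
theorem two_case (he2 : S.D.e = 2) : (∃ j : ℕ, p = 2 ^ j + 1) ∧ Nat.card G < p ^ 3 := by
  classical
  have hp5 := S.hp5
  obtain ⟨μ, hμ⟩ := Finset.card_eq_one.1 (by
    rw [Finset.card_erase_of_mem S.D.one_mem, S.D.card_X, he2] :
    (S.D.X.erase (Blocks.oneChar G)).card = 1)
  have hμm : μ ∈ S.D.X.erase (Blocks.oneChar G) := by rw [hμ]; exact Finset.mem_singleton_self μ
  have hμX := Finset.mem_of_mem_erase hμm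
  have hμ1 := Finset.ne_of_mem_erase hμm
  obtain ⟨θ, hθ⟩ := S.D.exists_Y
  have hrel : ∀ g : G, ¬ p ∣ orderOf g →
      1 + (S.D.ε μ : ℂ) * (μ : G → ℂ) g + (θ : G → ℂ) g = 0 := fun g hg => by
    have h := S.rel hθ hg
    rwa [hμ, Finset.sum_singleton] at h
  set d := charDegree (μ : G → ℂ) with hd
  have h1 := hrel 1 (by rw [orderOf_one]; exact hp.out.not_dvd_one)
  rw [apply_one_eq_deg, S.Y_deg_val hθ, he2] at h1
  have h1' : (1 : ℤ) + S.D.ε μ * d + ((p - 2 : ℕ) : ℤ) = 0 := by exact_mod_cast h1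
  have hεd : S.D.ε μ = -1 ∧ d = p - 1 := by
    rcases S.D.sign μ hμX with h | h <;> rw [h] at h1' <;> constructor <;> omega
  have hdvd := (S.X_deg_facts hμX hμ1).2.2.1
  rw [← hd, hεd.2, he2] at hdvd
  have hcop : Nat.Coprime (p - 1) (p - 2) := by
    rw [show p - 1 = (p - 2) + 1 by omega, Nat.coprime_self_add_left]
    exact Nat.coprime_one_left _
  obtain ⟨j, -, hj⟩ := (Nat.dvd_prime_pow Nat.prime_two).1 (hcop.dvd_of_dvd_mul_right hdvd)
  refine ⟨⟨j, by omega⟩, ?_⟩
  have hμdeg : (μ : G → ℂ) 1 = ((p - 1 : ℕ) : ℂ) := by rw [apply_one_eq_deg, ← hd, hεd.2]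
  have hμx : ∀ y ∈ Subgroup.zpowers x, y ≠ 1 → (μ : G → ℂ) y = -1 := fun y hy hy1 => by
    rw [S.X_val hμX hy hy1, hεd.1]; simp
  have hint : ∀ g : G, ∃ z : ℤ, (μ : G → ℂ) g = z := by
    intro g
    refine Chars.exists_int_of_fixed (Chars.isIntegral_of_isCharacter (Chars.irr_isCharacter μ) g)
      fun σ => ?_
    set ν : IrrCharacter G := ⟨fun g => σ ((μ : G → ℂ) g), OddChar.isIrrCharacter_map σ μ.2⟩
    have hνv : ∀ g, (ν : G → ℂ) g = σ ((μ : G → ℂ) g) := fun g => rfl
    have hνd : charDegree (ν : G → ℂ) = p - 1 := by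
      have h := hνv 1
      rw [hμdeg, map_natCast, apply_one_eq_deg] at h
      exact_mod_cast h
    have hne : ν ≠ Blocks.oneChar G := fun h => by
      rw [h] at hνd; simp [Blocks.coe_oneChar, charDegree] at hνd; omega
    rcases S.mem_of_ne_zero (χ := ν) (by
      rw [hνv, hμx x (Subgroup.mem_zpowers x) S.x_ne, map_neg, map_one]; norm_num) with h | h
    · have h' : ν ∈ S.D.X.erase (Blocks.oneChar G) := Finset.mem_erase.2 ⟨hne, h⟩
      rw [hμ, Finset.mem_singleton] at h'
      rw [← hνv, h']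
    · have := S.hdY ν h
      omega
  have hsing : ∀ g : G, p ∣ orderOf g → (μ : G → ℂ) g = -1 := fun g hg => by
    obtain ⟨a, ha, ha1⟩ := S.exists_conj hg
    rw [← Chars.isCharacter_conj_apply (Chars.irr_isCharacter μ) g a]
    exact hμx _ ha ha1
  have h := TwicePrime.card_eq hp.out hp5 μ.2 θ.2 hμdeg hint
    (fun g hg => faithful_of_simple S.hsimple μ hμ1 hg) hsing (fun g hg => by
      have h := hrel g hg
      rw [hεd.1] at h
      push_cast at h
      linear_combination h) (by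
      have h := S.count
      rw [he2, mul_comm p 2] at h
      exact h)
  rw [h, pow_three]
  obtain ⟨r, hr⟩ : ∃ r, p = r + 2 := ⟨p - 2, by omega⟩
  subst hr
  simp only [show r + 2 - 1 = r + 1 by omega, show r + 2 - 2 = r by omega]
  nlinarith

/-- Three exceptional characters and an inertial index divisible by four do not occur. -/
theorem four_false (ht : 3 ≤ S.D.t) (hi : 2 ≤ S.i) : False := by
  classical
  have hp5 := S.hp5
  have hlt := S.deg_lt
  have he4 : 4 ∣ S.D.e := by rw [S.he]; exact pow_dvd_pow 2 hi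
  have hp4 : 4 ∣ p - 1 := by rw [← S.D.mul_et]; exact he4.mul_right _
  have h4 : ∀ χ ∈ S.D.X.erase (Blocks.oneChar G), 4 ∣ charDegree (χ : G → ℂ) := by
    intro χ hχ
    obtain ⟨hgt, h2, hdvd, k, hk1, hk⟩ :=
      S.X_deg_facts (Finset.mem_of_mem_erase hχ) (Finset.ne_of_mem_erase hχ)
    set d := charDegree (χ : G → ℂ) with hd
    obtain ⟨α, hα⟩ := h2
    by_contra hn
    have hodd : ¬ 2 ∣ α := fun h => hn (by rw [hα]; exact mul_dvd_mul_left 2 h)
    have hαg : α ∣ p - S.D.e :=
      ((Nat.prime_two.coprime_iff_not_dvd.2 hodd).symm.pow_right S.b).dvd_of_dvd_mul_left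
        ((Dvd.intro_left 2 hα.symm).trans hdvd)
    have hαle := Nat.le_of_dvd (by omega) hαg
    have hk' : k = 1 := by
      by_contra hne
      have h' : (2 : ℤ) * p ≤ (k : ℤ) * p :=
        mul_le_mul_of_nonneg_right (by omega) (Int.natCast_nonneg p)
      rcases S.D.sign χ (Finset.mem_of_mem_erase hχ) with h | h <;> omega
    subst hk'
    rcases S.D.sign χ (Finset.mem_of_mem_erase hχ) with h | h <;> rw [h] at hk
    · have hd1 : d = p + 1 := by omega
      obtain ⟨c, hc⟩ := hαg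
      have hc1 : c = 1 := by
        by_contra hne
        rcases Nat.eq_zero_or_pos c with h0 | h0
        · rw [h0, mul_zero] at hc; omega
        · have : α * 2 ≤ α * c := Nat.mul_le_mul_left α (by omega)
          omega
      rw [hc1, mul_one] at hc
      have h2e : 2 * S.D.e = p - 1 := by omega
      have h3 : S.D.e * 3 ≤ S.D.e * S.D.t := Nat.mul_le_mul_left _ ht
      rw [S.D.mul_et] at h3
      omega
    · have hd1 : d = p - 1 := by omega
      exact hn (by rw [hd1]; exact hp4)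
  obtain ⟨z, hz, hz1, hodd⟩ := S.exists_involution_odd_class
  have hzreg : ¬ p ∣ orderOf z := fun h => by
    have h2 := Nat.le_of_dvd two_pos (h.trans (orderOf_dvd_of_pow_eq_one (by rw [sq, hz])))
    omega
  choose v hv using fun χ : IrrCharacter G => show ∃ v : ℤ, (χ : G → ℂ) z = (v : ℂ) from by
    obtain ⟨β, hβ⟩ := involution_mod_four S.hperf χ hz (apply_one_eq_deg χ)
    exact ⟨(charDegree (χ : G → ℂ) : ℤ) - 4 * β, by rw [hβ]; push_cast; ring⟩
  obtain ⟨θ, hθ⟩ := S.D.exists_Y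
  obtain ⟨β, hβ⟩ := involution_mod_four S.hperf θ hz (S.Y_deg_val hθ)
  have hrel := S.rel hθ hzreg
  rw [hβ] at hrel
  simp only [hv] at hrel
  have hrel' : (1 : ℤ) + (∑ χ ∈ S.D.X.erase (Blocks.oneChar G), S.D.ε χ * v χ) +
      (((p - S.D.e : ℕ) : ℤ) - 4 * β) = 0 := by exact_mod_cast hrel
  have hdiv : (4 : ℤ) ∣ ∑ χ ∈ S.D.X.erase (Blocks.oneChar G), S.D.ε χ * v χ := by
    refine Finset.dvd_sum fun χ hχ => dvd_mul_of_dvd_right ?_ _
    have h := dvd_index_mul χ (apply_one_eq_deg χ) (deg_pos χ) (hv χ)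
    have h' : (4 : ℤ) ∣ ((Subgroup.centralizer ({z} : Set G)).index : ℤ) * v χ :=
      (Int.natCast_dvd_natCast.2 (h4 χ hχ)).trans h
    refine Int.dvd_of_dvd_mul_right_of_gcd_one h' ?_
    show Nat.gcd 4 (Subgroup.centralizer ({z} : Set G)).index = 1
    exact ((Nat.prime_two.coprime_iff_not_dvd.2 hodd).pow_left 2)
  obtain ⟨c, hc⟩ := hdiv
  obtain ⟨a, ha⟩ := he4
  obtain ⟨b, hb⟩ := hp4
  omega

end Shape

end Cfsg.Agent.Blocks.TwoPrimeOrder
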